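import Cfsg.Agent.FischerRecog58.Base
import Cfsg.Agent.FischerRecog58.AData
import Cfsg.Agent.FischerRecog58.AData2

/-!
Checks on the table for the base, its coordinates and its normalizer.
-/

set_option autoImplicit false
set_option maxRecDepth 100000

namespace CfsgLib.FischerRecog58

open CfsgLib.CosetEnum CfsgLib.CosetEnum.Fi22

/-- The palindrome of a conjugating word. -/
def pword (v : List ℕ) : List ℕ := v ++ [0] ++ v.reverse

/-- The word of a coordinate vector. -/
def vword (n : ℕ) : List ℕ :=
  ((List.range 10).map fun j => if n.testBit j then pword (AData.words.getD (AData.bidx.getD j 0) [])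
    else []).flatten

/-- The word of a normalizing element. -/
def hword (k : ℕ) : List ℕ := ((AData.hws.getD k []).map pword).flatten

/-- The word of an element of the tree. -/
def tword : ℕ → ℕ → List ℕ
  | 0, _ => []
  | fuel + 1, i => if i = 0 then [] else
      hword (5 + (AData.tree.getD i (0, 0)).1) ++ tword fuel (AData.tree.getD i (0, 0)).2

/-- The word of a tree index. -/
def tw64 (i : ℕ) : List ℕ := tword 64 i

/-- The image of a coordinate vector under a normalizing element. -/
noncomputable def linI (k n : ℕ) : ℕ :=
  (List.range 10).foldr (fun j acc => if n.testBit j then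
    Nat.xor (AData.vecs.getD ((AData.perms.getD k []).getD (AData.bidx.getD j 0) 0) 0) acc else acc) 0

/-- Equality on the five points. -/
noncomputable def same5 (u w : List ℕ) : Bool :=
  [0, 1, 192, 521, 2359].all fun p =>
    Nat.beq (runT Tab.perm.T Tab.perm.L u p) (runT Tab.perm.T Tab.perm.L w p)

theorem awords_check : AData.words.all (fun v => v.all fun x => x.blt 9) &&
    (List.range 22).all (fun i => Nat.beq (runT Tab.perm.T Tab.perm.L (AData.words.getD i []).reverse 0)
      (AData.pts.getD i 0) && Nat.blt (AData.vecs.getD i 0) 1024 &&
      same5 (pword (AData.words.getD i [])) (vword (AData.vecs.getD i 0)) &&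
      (List.range 22).all fun j => Nat.beq (runT Tab.perm.T Tab.perm.L (pword (AData.words.getD i []))
        (AData.pts.getD j 0)) (AData.pts.getD j 0)) = true := by decide +kernel

theorem alens_check : AData.words.length = 22 ∧ AData.pts.length = 22 ∧ AData.pts.Nodup ∧
    AData.bidx.all (fun b => b < 22) = true ∧ AData.bidx.length = 10 ∧
    AData.hws.length = 9 ∧ AData.tree.length = 64 := by decide +kernel

theorem hws_check : AData.hws.all (fun l => l.all fun v => v.all fun x => x.blt 9) &&
    (List.range 9).all (fun k => Nat.beq (runT Tab.perm.T Tab.perm.L (hword k).reverse 0) 0 &&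
      (List.range 22).all fun i => Nat.blt ((AData.perms.getD k []).getD i 0) 22 &&
        Nat.beq (runT Tab.perm.T Tab.perm.L (hword k).reverse (AData.pts.getD i 0))
          (AData.pts.getD ((AData.perms.getD k []).getD i 0) 0)) = true := by decide +kernel

theorem tree_check : (List.range 64).all (fun i => Nat.beq i 0 ||
    (Nat.blt (AData.tree.getD i (0, 0)).1 4 && Nat.blt (AData.tree.getD i (0, 0)).2 i)) &&
    (List.range 64).all (fun i => (List.range 22).all fun j =>
      Nat.blt ((AData.tperms.getD i []).getD j 0) 22 &&
      Nat.beq (runT Tab.perm.T Tab.perm.L (tw64 i).reverse (AData.pts.getD j 0))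
        (AData.pts.getD ((AData.tperms.getD i []).getD j 0) 0)) = true := by decide +kernel

theorem tperms_distinct : (List.range 64).all (fun i => (List.range 64).all fun j => Nat.beq i j ||
    !((List.range 22).all fun x => Nat.beq ((AData.tperms.getD i []).getD x 0)
      ((AData.tperms.getD j []).getD x 0))) = true := by decide +kernel

/-- The check on one row of the multiplication table of the tree. -/
noncomputable def tmulOk (g i : ℕ) : Bool :=
  let r := AData.tmul.getD (64 * g + i) (0, 0)
  Nat.blt r.1 1024 && Nat.blt r.2 64 &&
    same5 (hword (5 + g) ++ tw64 i) (vword r.1 ++ tw64 r.2)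

set_option maxHeartbeats 4000000 in
theorem tmul_check0 : (List.range 64).all (tmulOk 0) = true := by decide +kernel

set_option maxHeartbeats 4000000 in
theorem tmul_check1 : (List.range 64).all (tmulOk 1) = true := by decide +kernel

set_option maxHeartbeats 4000000 in
theorem tmul_check2 : (List.range 64).all (tmulOk 2) = true := by decide +kernel

set_option maxHeartbeats 4000000 in
theorem tmul_check3 : (List.range 64).all (tmulOk 3) = true := by decide +kernel

theorem tmul_check {g i : ℕ} (hg : g < 4) (hi : i < 64) : tmulOk g i = true :=
  match g, hg with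
  | 0, _ => List.all_eq_true.1 tmul_check0 i (List.mem_range.2 hi)
  | 1, _ => List.all_eq_true.1 tmul_check1 i (List.mem_range.2 hi)
  | 2, _ => List.all_eq_true.1 tmul_check2 i (List.mem_range.2 hi)
  | 3, _ => List.all_eq_true.1 tmul_check3 i (List.mem_range.2 hi)

end CfsgLib.FischerRecog58
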