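import Cfsg.Agent.FischerRecog58.AChecks
import Cfsg.Agent.FischerRecog58.RModel
import Cfsg.Agent.ThreeTransp.M22CoverBase94
import Cfsg.Agent.ThreeTransp.M22Thompson94

/-!
A base of the presented Fi22 through the first generator, with coordinates.
-/

set_option autoImplicit false
set_option maxRecDepth 100000

namespace CfsgLib.FischerRecog58

open Cfsg CfsgLib.ThreeTransp CfsgLib.CosetEnum CfsgLib.CosetEnum.Fi22

theorem eq_of_five {u w : List ℕ} (hu : ∀ x ∈ u, x < 9) (hw : ∀ x ∈ w, x < 9)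
    (h : same5 u w = true) : gword g9 u = gword g9 w := by
  apply pi_injective
  rw [pi_gword u hu, pi_gword w hw]
  have hmem : gword perm_ok.sigma w * (gword perm_ok.sigma u)⁻¹ ∈
      pointStab pi.range [P4, P3, P2, P1, P0] := by
    refine mem_pointStab.2 ⟨mul_mem ⟨_, pi_gword w hw⟩ (inv_mem ⟨_, pi_gword u hu⟩), fun p hp => ?_⟩
    have hp' : Nat.beq (runT Tab.perm.T Tab.perm.L u p) (runT Tab.perm.T Tab.perm.L w p) = true := by
      simp only [List.mem_cons, List.not_mem_nil, or_false] at hp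
      simp only [same5, List.all_cons, List.all_nil, Bool.and_eq_true] at h
      obtain ⟨h0, h1, h2, h3, h4, -⟩ := h
      rcases hp with rfl | rfl | rfl | rfl | rfl
      exacts [h4, h3, h2, h1, h0]
    have e : (gword perm_ok.sigma u)⁻¹ p = (gword perm_ok.sigma w)⁻¹ p := Fin.ext (by
      rw [perm_ok.gword_inv_apply u hu, perm_ok.gword_inv_apply w hw]
      exact Nat.eq_of_beq_eq_true hp')
    rw [Equiv.Perm.mul_apply, e]
    exact (gword perm_ok.sigma w).apply_symm_apply p
  have hbot : pointStab pi.range [P4, P3, P2, P1, P0] = ⊥ := by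
    refine Subgroup.eq_bot_of_card_le _ ?_
    have h1 := card_range_ge
    rw [card_range_eq] at h1
    omega
  rw [hbot, Subgroup.mem_bot, mul_inv_eq_one] at hmem
  exact hmem.symm

theorem pword_eq_palW : pword = palW := rfl

theorem hword_lt (k : ℕ) : ∀ x ∈ hword k, x < 9 := by
  intro x hx
  obtain ⟨w, hw, hxw⟩ := List.mem_flatten.1 hx
  obtain ⟨v, hv, rfl⟩ := List.mem_map.1 hw
  refine palW_lt (fun y hy => ?_) x hxw
  have h := hws_check
  simp only [Bool.and_eq_true, List.all_eq_true, decide_eq_true_eq, Nat.blt, Nat.ble_eq] at h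
  by_cases hk : k < AData.hws.length
  · rw [List.getD_eq_getElem _ _ hk] at hv
    exact h.1 _ (List.getElem_mem hk) v hv y hy
  · rw [List.getD_eq_default _ _ (not_lt.1 hk)] at hv
    exact absurd hv List.not_mem_nil

/-- The words of the base. -/
def aw (i : Fin 22) : List ℕ := AData.words.getD i []

/-- The members of the base. -/
noncomputable def bm (i : Fin 22) : Spor.Fi22 := mw (aw i)

theorem aw_spec (i : Fin 22) : (∀ x ∈ aw i, x < 9) ∧
    runT Tab.perm.T Tab.perm.L (aw i).reverse 0 = AData.pts.getD i 0 ∧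
      AData.vecs.getD i 0 < 1024 ∧
      same5 (pword (aw i)) (vword (AData.vecs.getD i 0)) = true ∧
      ∀ j : Fin 22, runT Tab.perm.T Tab.perm.L (pword (aw i)) (AData.pts.getD j 0) =
        AData.pts.getD j 0 := by
  have h := awords_check
  simp only [Bool.and_eq_true, List.all_eq_true, decide_eq_true_eq, List.mem_range, Nat.beq_eq,
    Nat.blt, Nat.ble_eq] at h
  obtain ⟨⟨⟨h1, h2⟩, h3⟩, h4⟩ := h.2 i i.2
  refine ⟨?_, h1, h2, h3, fun j => h4 j j.2⟩
  have hl : (i : ℕ) < AData.words.length := alens_check.1.symm ▸ i.2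
  intro x hx
  rw [aw, List.getD_eq_getElem _ _ hl] at hx
  exact h.1 _ (List.getElem_mem hl) x hx

theorem bm_pt (i : Fin 22) : (memPt ⟨bm i, mw_mem _⟩ : ℕ) = AData.pts.getD i 0 := by
  rw [show (⟨bm i, mw_mem _⟩ : D22) = ⟨mw (aw i), mw_mem _⟩ from rfl, memPt_mw _ (aw_spec i).1]
  exact (aw_spec i).2.1

theorem bm_inj : Function.Injective bm := by
  intro i j h
  have e : (memPt ⟨bm i, mw_mem _⟩ : ℕ) = memPt ⟨bm j, mw_mem _⟩ := by
    rw [show (⟨bm i, mw_mem _⟩ : D22) = ⟨bm j, mw_mem _⟩ from Subtype.ext h]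
  have hl := alens_check.2.1
  rw [bm_pt, bm_pt, List.getD_eq_getElem _ _ (hl.symm ▸ i.2 : (i : ℕ) < AData.pts.length),
    List.getD_eq_getElem _ _ (hl.symm ▸ j.2 : (j : ℕ) < AData.pts.length)] at e
  exact Fin.ext ((alens_check.2.2.1.getElem_inj_iff).1 e)

theorem bm_comm (i j : Fin 22) : Commute (bm i) (bm j) := by
  refine (commute_iff_fix _ ⟨bm j, mw_mem _⟩).2 (Fin.ext ?_)
  rw [show bm i = mw (aw i) from rfl, pi_mw_val _ (aw_spec i).1, bm_pt]
  exact (aw_spec i).2.2.2.2 j

theorem bm_zero : bm 0 = U6.a0 := by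
  have : aw 0 = [] := by decide +kernel
  rw [bm, this, mw, gword_nil, inv_one, one_mul, mul_one]

theorem base_clique : MaxClique53 D22 (Set.range bm) := by
  have := finite_fi22
  obtain ⟨B, hB, hne, hsub⟩ := clique_extend94 (D := D22) (S := Set.range bm) (Set.range_nonempty _)
    (Set.range_subset_iff.2 fun i => mw_mem _)
    (by rintro _ ⟨i, rfl⟩ _ ⟨j, rfl⟩; exact bm_comm i j)
  have e : Set.range bm = B := by
    refine Set.eq_of_subset_of_ncard_le hsub ?_ (Set.toFinite B)
    rw [m22_clique_card ttg22 primitive22 type22 hB hne, ← Set.image_univ,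
      Set.ncard_image_of_injective _ bm_inj, Set.ncard_univ, Nat.card_fin]
  exact e ▸ hB

/-- The group of the base. -/
noncomputable def A22 : Subgroup Spor.Fi22 := Subgroup.closure (Set.range bm)

theorem A22_span {x : Spor.Fi22} (hx : x ∈ A22) : x * x = 1 ∧ ∀ b ∈ Set.range bm, Commute x b :=
  have := finite_fi22
  m22_base_span94 ttg22 primitive22 type22 base_clique hx

theorem A22_abel {x y : Spor.Fi22} (hx : x ∈ A22) (hy : y ∈ A22) : Commute x y :=
  have := finite_fi22
  m22_base_abel94 ttg22 primitive22 type22 base_clique hx hy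

theorem card_A22 : Nat.card A22 = 1024 :=
  have := finite_fi22
  m22_base_card_eq94 ttg22 primitive22 type22 base_clique (Set.range_nonempty _)

/-- A coordinate member. -/
noncomputable def bq (j : ℕ) : Spor.Fi22 := mw (AData.words.getD (AData.bidx.getD j 0) [])

theorem bidx_lt (j : ℕ) : AData.bidx.getD j 0 < 22 := by
  by_cases hj : j < AData.bidx.length
  · rw [List.getD_eq_getElem _ _ hj]
    simpa using List.all_eq_true.1 alens_check.2.2.2.1 _ (List.getElem_mem hj)
  · rw [List.getD_eq_default _ _ (not_lt.1 hj)]; norm_num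

theorem bq_eq (j : ℕ) : bq j = bm ⟨_, bidx_lt j⟩ := rfl

theorem bq_mem (j : ℕ) : bq j ∈ A22 := Subgroup.subset_closure ⟨_, (bq_eq j).symm⟩

/-- Partial products of coordinate members. -/
noncomputable def vprod (l : List ℕ) (n : ℕ) : Spor.Fi22 :=
  (l.map fun j => if n.testBit j then bq j else 1).prod

/-- The element of a coordinate vector. -/
noncomputable def vfun (n : ℕ) : Spor.Fi22 := vprod (List.range 10) n

theorem vprod_mem (l : List ℕ) (n : ℕ) : vprod l n ∈ A22 := by
  refine list_prod_mem fun x hx => ?_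
  obtain ⟨j, -, rfl⟩ := List.mem_map.1 hx
  split_ifs
  exacts [bq_mem j, one_mem _]

theorem vfun_mem (n : ℕ) : vfun n ∈ A22 := vprod_mem _ n

theorem vprod_xor (m n : ℕ) : ∀ l : List ℕ, vprod l (m ^^^ n) = vprod l m * vprod l n
  | [] => (one_mul 1).symm
  | j :: l => by
    have e : ∀ k, vprod (j :: l) k = (if k.testBit j then bq j else 1) * vprod l k := fun k => rfl
    have c : Commute (bq j) (vprod l m) := A22_abel (bq_mem j) (vprod_mem l m)
    have s := (A22_span (bq_mem j)).1
    rw [e, e, e, vprod_xor m n l, Nat.testBit_xor]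
    generalize bq j = b at c s ⊢
    generalize vprod l m = x at c ⊢
    generalize vprod l n = y
    cases m.testBit j <;> cases n.testBit j <;>
      simp only [Bool.xor_false, Bool.xor_true, Bool.not_false, Bool.not_true, Bool.false_eq_true,
        if_false, if_true, one_mul, mul_one]
    · rw [← mul_assoc, c.eq, mul_assoc]
    · rw [← mul_assoc]
    · rw [mul_assoc b x, ← mul_assoc x b, ← c.eq, mul_assoc b x y, ← mul_assoc b b, s, one_mul]

theorem vfun_xor (m n : ℕ) : vfun (m ^^^ n) = vfun m * vfun n := vprod_xor m n _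

theorem vword_lt (n : ℕ) : ∀ x ∈ vword n, x < 9 := by
  intro x hx
  obtain ⟨w, hw, hxw⟩ := List.mem_flatten.1 hx
  obtain ⟨j, -, rfl⟩ := List.mem_map.1 hw
  split_ifs at hxw
  · exact palW_lt (aw_spec ⟨_, bidx_lt j⟩).1 x hxw
  · exact absurd hxw List.not_mem_nil

theorem gword_flatten : ∀ L : List (List ℕ), gword g9 L.flatten = (L.map (gword g9)).prod
  | [] => rfl
  | w :: L => by rw [List.flatten_cons, U6.gword_app, gword_flatten L, List.map_cons, List.prod_cons]

theorem vfun_word (n : ℕ) : vfun n = gword g9 (vword n) := by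
  rw [vword, gword_flatten, List.map_map, vfun, vprod]
  congr 1
  refine List.map_congr_left fun j _ => ?_
  simp only [Function.comp_apply]
  split_ifs
  · exact mw_eq_gword _
  · rw [gword_nil]

theorem bm_vfun (i : Fin 22) : bm i = vfun (AData.vecs.getD i 0) := by
  rw [vfun_word, show bm i = gword g9 (pword (aw i)) from mw_eq_gword _]
  exact eq_of_five (palW_lt (aw_spec i).1) (vword_lt _) (aw_spec i).2.2.2.1

theorem vfun_zero : vfun 0 = 1 := by
  simp [vfun, vprod]

theorem vfun_surj {x : Spor.Fi22} (hx : x ∈ A22) : ∃ n < 1024, vfun n = x := by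
  induction hx using Subgroup.closure_induction with
  | mem x h => obtain ⟨i, rfl⟩ := h; exact ⟨_, (aw_spec i).2.2.1, (bm_vfun i).symm⟩
  | one => exact ⟨0, by norm_num, vfun_zero⟩
  | mul x y _ _ ihx ihy =>
    obtain ⟨m, hm, rfl⟩ := ihx
    obtain ⟨n, hn, rfl⟩ := ihy
    exact ⟨m ^^^ n, Nat.xor_lt_two_pow (n := 10) hm hn, vfun_xor m n⟩
  | inv x hx ihx =>
    rw [inv_eq_of_mul_eq_one_right (A22_span hx).1]
    exact ihx

theorem vfun_inj {m n : ℕ} (hm : m < 1024) (hn : n < 1024) (h : vfun m = vfun n) : m = n := by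
  have := finite_fi22
  have hb : Function.Bijective (fun k : Fin 1024 => (⟨vfun k, vfun_mem k⟩ : A22)) := by
    rw [Nat.bijective_iff_surjective_and_card, Nat.card_fin, card_A22]
    refine ⟨fun x => ?_, rfl⟩
    obtain ⟨k, hk, e⟩ := vfun_surj x.2
    exact ⟨⟨k, hk⟩, Subtype.ext e⟩
  exact congrArg Fin.val (hb.1 (a₁ := ⟨m, hm⟩) (a₂ := ⟨n, hn⟩) (Subtype.ext h))

/-- The normalizing elements. -/
noncomputable def hel (k : ℕ) : Spor.Fi22 := gword g9 (hword k)

theorem hperm_spec {k : ℕ} (hk : k < 9) (i : Fin 22) :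
    ∃ h : (AData.perms.getD k []).getD i 0 < 22,
      hel k * bm i * (hel k)⁻¹ = bm ⟨_, h⟩ := by
  have h := hws_check
  simp only [Bool.and_eq_true, List.all_eq_true, decide_eq_true_eq, List.mem_range, Nat.beq_eq,
    Nat.blt, Nat.ble_eq] at h
  obtain ⟨h1, h2⟩ := (h.2 k hk).2 i i.2
  refine ⟨h1, ?_⟩
  refine congrArg Subtype.val (memPt_injective (a₁ := ⟨_, conj_mem_D22 (hel k) (mw_mem (aw i))⟩)
    (a₂ := ⟨bm ⟨_, h1⟩, mw_mem _⟩) (Fin.ext ?_))
  rw [memPt_equivariant _ ⟨mw (aw i), mw_mem _⟩, hel, pi_gword_val _ (hword_lt k), bm_pt,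
    show (⟨mw (aw i), mw_mem _⟩ : D22) = ⟨bm i, mw_mem _⟩ from rfl, bm_pt]
  exact h2

theorem hel_comm {k : ℕ} (hk : k < 9) : Commute U6.a0 (hel k) := by
  rw [commute_a0_iff]
  refine Fin.ext ?_
  rw [hel, pi_gword_val _ (hword_lt k)]
  have h := hws_check
  simp only [Bool.and_eq_true, List.all_eq_true, decide_eq_true_eq, List.mem_range, Nat.beq_eq] at h
  exact (h.2 k hk).1

theorem linI_spec {k : ℕ} (hk : k < 9) (n : ℕ) :
    linI k n < 1024 ∧ hel k * vfun n * (hel k)⁻¹ = vfun (linI k n) := by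
  suffices key : ∀ l : List ℕ,
      l.foldr (fun j acc => if n.testBit j then
        Nat.xor (AData.vecs.getD ((AData.perms.getD k []).getD (AData.bidx.getD j 0) 0) 0) acc
        else acc) 0 < 1024 ∧
      hel k * vprod l n * (hel k)⁻¹ = vfun (l.foldr (fun j acc => if n.testBit j then
        Nat.xor (AData.vecs.getD ((AData.perms.getD k []).getD (AData.bidx.getD j 0) 0) 0) acc
        else acc) 0) from key _
  intro l
  induction l with
  | nil =>
    refine ⟨by simp, ?_⟩
    rw [List.foldr_nil, vfun_zero, show vprod [] n = 1 from rfl, mul_one, mul_inv_cancel]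
  | cons j l ih =>
    obtain ⟨h1, h2⟩ := ih
    rw [List.foldr_cons, show vprod (j :: l) n = (if n.testBit j then bq j else 1) * vprod l n from rfl]
    by_cases hb : n.testBit j
    · obtain ⟨hi, e⟩ := hperm_spec hk ⟨_, bidx_lt j⟩
      rw [if_pos hb, if_pos hb]
      refine ⟨Nat.xor_lt_two_pow (n := 10) (aw_spec ⟨_, hi⟩).2.2.1 h1, ?_⟩
      refine Eq.trans ?_ (vfun_xor _ _).symm
      rw [← h2, ← bm_vfun ⟨_, hi⟩, ← e, ← bq_eq]
      group
    · rw [if_neg hb, if_neg hb, one_mul]
      exact ⟨h1, h2⟩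

end CfsgLib.FischerRecog58
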