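import Cfsg.Agent.FischerRecog58.AChecks

/-!
Checks on the orbits of the coordinate vectors and on the unions of orbits.
-/

set_option autoImplicit false
set_option maxRecDepth 100000
set_option maxHeartbeats 4000000

namespace CfsgLib.FischerRecog58

open CfsgLib.CosetEnum

/-- Membership in a union of orbits, coded by five bits. -/
noncomputable def inO (m n : ℕ) : Bool :=
  Nat.blt 0 n && (Nat.beq (AData.lab n) 0 || m.testBit (AData.lab n - 1))

/-- The members of a union of orbits. -/
noncomputable def olist (m : ℕ) : List ℕ := (List.range 1024).filter (inO m)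

/-- The number of members carried into the union by a translation. -/
noncomputable def cnt (m n : ℕ) : ℕ :=
  ((olist m).filter fun u => inO m (Nat.xor n u)).length

/-- Whether the steps start from known vectors and reach all of them. -/
def scanA : List (ℕ × ℕ × ℕ) → ℕ → ℕ → Bool
  | [], known, full => Nat.beq known full
  | s :: t, known, full => known.testBit s.2.2 && scanA t (known ||| 2 ^ s.1) full

theorem steps_orbit_check : AData.steps.all (fun s => Nat.blt s.2.1 5 && Nat.blt s.2.2 1024 &&
    Nat.beq (linI s.2.1 s.2.2) s.1 &&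
    Nat.beq (AData.lab s.1) (AData.lab s.2.2)) &&
    scanA AData.steps (AData.reps.foldr (fun r acc => acc ||| 2 ^ r) 0) (2 ^ 1024 - 2) &&
    decide (AData.reps = [1, 2, 3, 6, 7, 22]) &&
    (List.range 6).all (fun i => Nat.beq (AData.lab (AData.reps.getD i 0)) i) = true := by
  decide +kernel

theorem wit_check : (List.range 32).all (fun m =>
    Nat.beq m 0 || Nat.beq m 1 || Nat.beq m 2 || Nat.beq m 31 || AData.wit.any (fun p =>
      Nat.beq p.1 m && Nat.blt p.2 1024 && inO m p.2 && !Nat.beq (cnt m 1) (cnt m p.2))) = true := by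
  decide +kernel

theorem single_check : (List.range 1024).all (fun n =>
    (inO 1 n) == ((List.range 22).any fun i => Nat.beq (AData.vecs.getD i 0) n)) = true := by
  decide +kernel

theorem five_check : (inO 2 3 && inO 2 5 && inO 2 9 && inO 2 964 && inO 2 971 &&
    Nat.beq (Nat.xor (Nat.xor (Nat.xor 3 5) 9) 964) 971 && inO 2 1) &&
    (olist 2).all (fun u => (olist 2).all fun w => (olist 2).all fun x =>
      let y := Nat.xor (Nat.xor (Nat.xor 1 u) w) x
      !inO 2 y || Nat.beq u 1 || Nat.beq w 1 || Nat.beq x 1 || Nat.beq y 1 || Nat.beq u w ||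
        Nat.beq u x || Nat.beq u y || Nat.beq w x || Nat.beq w y || Nat.beq x y) = true := by
  decide +kernel

/-- The size of the two-point orbit set of a fixed vector for the Sylow part. -/
noncomputable def fcnt (z : ℕ) : ℕ :=
  ((List.range 1024).filter fun u => [5, 6, 7, 8].all fun k =>
    Nat.beq (linI k u) u || Nat.beq (linI k u) (Nat.xor u z)).length

theorem sylow_check : (Nat.beq (linI 5 802) 802 && Nat.beq (linI 6 802) 802 &&
    Nat.beq (linI 7 802) 802 && Nat.beq (linI 8 802) 802 && Nat.beq (linI 5 1) 1 &&
    Nat.beq (linI 6 1) 1 && Nat.beq (linI 7 1) 1 && Nat.beq (linI 8 1) 1 && inO 31 802 &&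
    !Nat.beq (fcnt 802) (fcnt 1)) = true := by decide +kernel

end CfsgLib.FischerRecog58
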