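import Cfsg.Agent.FischerRecog58.AModel
import Cfsg.Agent.FischerRecog58.AOrbitChecks

/-!
Unions of orbits of the normalizer on the coordinate vectors, and the Sylow part.
-/

set_option autoImplicit false
set_option maxRecDepth 100000

namespace CfsgLib.FischerRecog58

open Cfsg CfsgLib.ThreeTransp CfsgLib.CosetEnum CfsgLib.CosetEnum.Fi22

theorem scanA_sound {P : ℕ → Prop} : ∀ (l : List (ℕ × ℕ × ℕ)) (known full : ℕ),
    scanA l known full = true → (∀ n, known.testBit n = true → P n) →
    (∀ s ∈ l, P s.2.2 → P s.1) → ∀ n, full.testBit n = true → P n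
  | [], known, full, h, hk, _, n, hn => hk n (by
    simp only [scanA, Nat.beq_eq] at h
    rwa [h])
  | s :: t, known, full, h, hk, hs, n, hn => by
    simp only [scanA, Bool.and_eq_true] at h
    refine scanA_sound t _ full h.2 (fun m hm => ?_)
      (fun r hr => hs r (List.mem_cons_of_mem _ hr)) n hn
    simp only [Nat.testBit_or, Bool.or_eq_true, Nat.testBit_two_pow, decide_eq_true_eq] at hm
    rcases hm with hm | rfl
    · exact hk m hm
    · exact hs s List.mem_cons_self (hk _ h.1)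

theorem foldMask_mem : ∀ (l : List ℕ) (n : ℕ),
    (l.foldr (fun r acc => acc ||| 2 ^ r) 0).testBit n = true → n ∈ l
  | [], n, h => by simp at h
  | r :: l, n, h => by
    simp only [List.foldr_cons, Nat.testBit_or, Bool.or_eq_true, Nat.testBit_two_pow,
      decide_eq_true_eq] at h
    rcases h with h | rfl
    · exact List.mem_cons_of_mem _ (foldMask_mem l n h)
    · exact List.mem_cons_self

theorem orbit_rep {P : ℕ → Prop} (hP : ∀ k < 5, ∀ n < 1024, (P n ↔ P (linI k n)))
    {n : ℕ} (hn0 : 0 < n) (hn : n < 1024) :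
    AData.lab n < 6 ∧ (P n ↔ P (AData.reps.getD (AData.lab n) 0)) := by
  have h := steps_orbit_check
  simp only [Bool.and_eq_true, List.all_eq_true, List.mem_range, decide_eq_true_eq, Nat.beq_eq,
    Nat.blt, Nat.ble_eq] at h
  obtain ⟨⟨⟨hs, hscan⟩, hreps⟩, hrl⟩ := h
  refine scanA_sound (P := fun x => AData.lab x < 6 ∧ (P x ↔ P (AData.reps.getD (AData.lab x) 0)))
    _ _ _ hscan ?_ ?_ n ?_
  · intro x hx
    obtain ⟨i, hi, rfl⟩ := List.mem_iff_getElem.1 (foldMask_mem _ _ hx)
    have hi6 : i < 6 := by simpa [hreps] using hi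
    have := hrl i hi6
    rw [List.getD_eq_getElem _ _ hi] at this
    rw [this, List.getD_eq_getElem _ _ hi]
    exact ⟨hi6, Iff.rfl⟩
  · intro s hm ⟨h1, h2⟩
    obtain ⟨⟨⟨hg, hu⟩, hl⟩, hlab⟩ := hs s hm
    have h3 := hP _ hg _ hu
    rw [hl] at h3
    rw [hlab]
    exact ⟨h1, h3.symm.trans h2⟩
  · have e : (2 ^ 1024 - 2).testBit n = decide (1 ≤ n ∧ n < 1024) := by
      obtain ⟨m, rfl⟩ := Nat.exists_eq_add_one.2 hn0
      rw [show (2 : ℕ) ^ 1024 - 2 = 2 * (2 ^ 1023 - 1) by
        rw [Nat.mul_sub, ← pow_succ', mul_one]]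
      rw [Nat.testBit_succ, Nat.mul_div_cancel_left _ (by norm_num), Nat.testBit_two_pow_sub_one]
      simp
      omega
    rw [e]
    exact decide_eq_true ⟨hn0, hn⟩

theorem union_eq {P : ℕ → Prop} (hP : ∀ k < 5, ∀ n < 1024, (P n ↔ P (linI k n))) (h1 : P 1) :
    ∃ m < 32, ∀ n, 0 < n → n < 1024 → (P n ↔ inO m n = true) := by
  classical
  let bit : ℕ → Bool := fun i => decide (P (AData.reps.getD (i + 1) 0))
  refine ⟨(cond (bit 0) 1 0) + (cond (bit 1) 2 0) + (cond (bit 2) 4 0) + (cond (bit 3) 8 0) +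
    (cond (bit 4) 16 0), (by
      generalize bit 0 = b0; generalize bit 1 = b1; generalize bit 2 = b2; generalize bit 3 = b3
      generalize bit 4 = b4
      revert b0 b1 b2 b3 b4; decide), fun n hn0 hn => ?_⟩
  obtain ⟨hl, he⟩ := orbit_rep hP hn0 hn
  rw [he]
  have hb : ∀ i < 5, ((cond (bit 0) 1 0) + (cond (bit 1) 2 0) + (cond (bit 2) 4 0) +
      (cond (bit 3) 8 0) + (cond (bit 4) 16 0)).testBit i = bit i := by
    intro i hi
    interval_cases i <;> generalize bit 0 = b0 <;> generalize bit 1 = b1 <;>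
      generalize bit 2 = b2 <;> generalize bit 3 = b3 <;> generalize bit 4 = b4 <;>
      cases b0 <;> cases b1 <;> cases b2 <;> cases b3 <;> cases b4 <;> rfl
  simp only [inO, Nat.blt_eq, Bool.and_eq_true, Bool.or_eq_true, Nat.beq_eq, hn0, true_and]
  rcases Nat.eq_zero_or_pos (AData.lab n) with h | h
  · rw [h]
    exact ⟨fun _ => Or.inl rfl, fun _ => by
      rw [show AData.reps.getD 0 0 = 1 from rfl]; exact h1⟩
  · obtain ⟨i, hi⟩ := Nat.exists_eq_add_one.2 h
    rw [hi, Nat.add_sub_cancel, hb i (by omega)]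
    simp only [bit, decide_eq_true_eq]
    constructor
    · exact fun hh => Or.inr hh
    · rintro (hh | hh)
      · exact absurd hh (by omega)
      · exact hh

theorem mem_olist {m n : ℕ} : n ∈ olist m ↔ n < 1024 ∧ inO m n = true := by
  simp [olist]

theorem cnt_eq_ncard (m r : ℕ) : cnt m r =
    {u : ℕ | u < 1024 ∧ inO m u = true ∧ inO m (r ^^^ u) = true}.ncard := by
  have hnd : ((olist m).filter fun u => inO m (Nat.xor r u)).Nodup :=
    ((List.nodup_range).filter _).filter _
  rw [cnt, ← List.toFinset_card_of_nodup hnd, ← Set.ncard_coe_finset]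
  congr 1
  ext u
  simp only [List.coe_toFinset, Set.mem_ofPred_eq, List.mem_filter, mem_olist]
  exact and_assoc

end CfsgLib.FischerRecog58
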