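import Cfsg.Agent.FischerRecog58.AOrbit

/-!
A Sylow 2-subgroup of the centralizer of the first generator, normalizing the base.
-/

set_option autoImplicit false
set_option maxRecDepth 100000

namespace CfsgLib.FischerRecog58

open Cfsg CfsgLib.ThreeTransp CfsgLib.CosetEnum CfsgLib.CosetEnum.Fi22

/-- Generators of the Sylow part. -/
def sgens : Set Spor.Fi22 := (A22 : Set Spor.Fi22) ∪ {x | ∃ g < 4, hel (5 + g) = x}

/-- The Sylow part. -/
noncomputable def S2 : Subgroup Spor.Fi22 := Subgroup.closure sgens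

theorem tword_lt : ∀ (f i : ℕ), ∀ x ∈ tword f i, x < 9
  | 0, _, x, hx => absurd hx List.not_mem_nil
  | f + 1, i, x, hx => by
    rw [tword] at hx
    split_ifs at hx
    · exact absurd hx List.not_mem_nil
    · exact (List.mem_append.1 hx).elim (hword_lt _ x) (tword_lt f _ x)

/-- The elements of the tree. -/
noncomputable def tel (i : ℕ) : Spor.Fi22 := gword g9 (tw64 i)

theorem tree_gen_lt (i : ℕ) : (AData.tree.getD i (0, 0)).1 < 4 := by
  by_cases hi : i < 64
  · rcases Nat.eq_zero_or_pos i with rfl | h0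
    · decide +kernel
    · have h := tree_check
      simp only [Bool.and_eq_true, List.all_eq_true, List.mem_range, decide_eq_true_eq,
        Bool.or_eq_true, Nat.beq_eq, Nat.blt, Nat.ble_eq] at h
      exact ((h.1 i hi).resolve_left (by omega)).1
  · rw [List.getD_eq_default _ _ (by rw [alens_check.2.2.2.2.2.2]; omega)]
    norm_num

theorem gword_tword_mem : ∀ (f i : ℕ), gword g9 (tword f i) ∈ S2
  | 0, _ => one_mem _
  | f + 1, i => by
    rw [tword]
    split_ifs
    · exact one_mem _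
    · rw [U6.gword_app]
      exact mul_mem (Subgroup.subset_closure (Or.inr ⟨_, tree_gen_lt i, rfl⟩)) (gword_tword_mem f _)

theorem tel_mem (i : ℕ) : tel i ∈ S2 := gword_tword_mem _ _

theorem tperm_spec {i : ℕ} (hi : i < 64) (j : Fin 22) :
    ∃ h : (AData.tperms.getD i []).getD j 0 < 22, tel i * bm j * (tel i)⁻¹ = bm ⟨_, h⟩ := by
  have h := tree_check
  simp only [Bool.and_eq_true, List.all_eq_true, List.mem_range, decide_eq_true_eq, Nat.beq_eq,
    Nat.blt, Nat.ble_eq] at h
  obtain ⟨h1, h2⟩ := h.2 i hi j j.2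
  refine ⟨h1, ?_⟩
  refine congrArg Subtype.val (memPt_injective (a₁ := ⟨_, conj_mem_D22 (tel i) (mw_mem (aw j))⟩)
    (a₂ := ⟨bm ⟨_, h1⟩, mw_mem _⟩) (Fin.ext ?_))
  rw [memPt_equivariant _ ⟨mw (aw j), mw_mem _⟩, tel, pi_gword_val (tw64 i) (tword_lt _ _),
    show (⟨mw (aw j), mw_mem _⟩ : D22) = ⟨bm j, mw_mem _⟩ from rfl, bm_pt, bm_pt]
  exact h2

theorem tel_zero : tel 0 = 1 := rfl

theorem tmul_spec {g i : ℕ} (hg : g < 4) (hi : i < 64) :
    ∃ m k, m < 1024 ∧ k < 64 ∧ hel (5 + g) * tel i = vfun m * tel k := by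
  have h := tmul_check hg hi
  simp only [tmulOk, Bool.and_eq_true, Nat.blt, Nat.ble_eq] at h
  obtain ⟨⟨h1, h2⟩, h3⟩ := h
  refine ⟨_, _, h1, h2, ?_⟩
  rw [vfun_word, hel, tel, tel, ← U6.gword_app, ← U6.gword_app]
  refine eq_of_five ?_ ?_ h3 <;> intro x hx <;> rcases List.mem_append.1 hx with hx | hx
  exacts [hword_lt _ x hx, tword_lt _ _ x hx, vword_lt _ x hx, tword_lt _ _ x hx]

theorem S2_mem {x : Spor.Fi22} (hx : x ∈ S2) : ∃ n k, n < 1024 ∧ k < 64 ∧ x = vfun n * tel k := by
  have := finite_fi22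
  have hg : ∀ y ∈ sgens, ∀ z : Spor.Fi22, (∃ n k, n < 1024 ∧ k < 64 ∧ z = vfun n * tel k) →
      ∃ n k, n < 1024 ∧ k < 64 ∧ y * z = vfun n * tel k := by
    rintro y (hy | ⟨g, hg, rfl⟩) z ⟨n, k, hn, hk, rfl⟩
    · obtain ⟨m, hm, rfl⟩ := vfun_surj hy
      exact ⟨m ^^^ n, k, Nat.xor_lt_two_pow (n := 10) hm hn, hk, by rw [vfun_xor, mul_assoc]⟩
    · obtain ⟨h1, h2⟩ := linI_spec (k := 5 + g) (by omega) n
      obtain ⟨m, k', hm, hk', e⟩ := tmul_spec hg hk
      refine ⟨linI (5 + g) n ^^^ m, k', Nat.xor_lt_two_pow (n := 10) h1 hm, hk', ?_⟩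
      rw [vfun_xor, mul_assoc, ← e, ← h2]
      group
  induction hx using Subgroup.closure_induction_left with
  | one => exact ⟨0, 0, by norm_num, by norm_num, by rw [vfun_zero, tel_zero, one_mul]⟩
  | mul_left y hy z _ ih => exact hg y hy z ih
  | inv_mul_cancel y hy z _ ih =>
    rw [show y⁻¹ = y ^ (orderOf y - 1) from inv_eq_of_mul_eq_one_right (by
      rw [← pow_succ', Nat.sub_add_cancel (orderOf_pos y), pow_orderOf_eq_one])]
    induction orderOf y - 1 with
    | zero => rw [pow_zero, one_mul]; exact ih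
    | succ j hj => rw [pow_succ', mul_assoc]; exact hg y hy _ hj

theorem card_S2 : Nat.card S2 = 65536 := by
  have := finite_fi22
  let f : Fin 1024 × Fin 64 → S2 := fun p => ⟨vfun p.1 * tel p.2,
    mul_mem (Subgroup.subset_closure (Or.inl (vfun_mem _))) (tel_mem _)⟩
  have hb : Function.Bijective f := by
    refine ⟨fun p q h => ?_, fun x => ?_⟩
    · have e : vfun p.1 * tel p.2 = vfun q.1 * tel q.2 := congrArg Subtype.val h
      have hpq : p.2 = q.2 := by
        by_contra hne
        have hd := tperms_distinct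
        simp only [List.all_eq_true, List.mem_range, Bool.or_eq_true, Nat.beq_eq,
          Bool.not_eq_true', ← Bool.not_eq_true] at hd
        refine (hd p.2 p.2.2 q.2 q.2.2).resolve_left (fun h => hne (Fin.ext h)) fun x hx => ?_
        obtain ⟨hx1, e1⟩ := tperm_spec p.2.2 ⟨x, hx⟩
        obtain ⟨hx2, e2⟩ := tperm_spec q.2.2 ⟨x, hx⟩
        have fixes : ∀ (n : ℕ) (b : Fin 22), vfun n * bm b * (vfun n)⁻¹ = bm b := fun n b => by
          rw [(A22_abel (vfun_mem n) (Subgroup.subset_closure ⟨b, rfl⟩)).eq, mul_inv_cancel_right]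
        have h3 : bm ⟨(AData.tperms.getD p.2 []).getD x 0, hx1⟩ =
            bm ⟨(AData.tperms.getD q.2 []).getD x 0, hx2⟩ := by
          rw [← fixes p.1 ⟨_, hx1⟩, ← e1]
          conv_rhs => rw [← fixes q.1 ⟨_, hx2⟩, ← e2]
          calc _ = (vfun p.1 * tel p.2) * bm ⟨x, hx⟩ * (vfun p.1 * tel p.2)⁻¹ := by group
            _ = (vfun q.1 * tel q.2) * bm ⟨x, hx⟩ * (vfun q.1 * tel q.2)⁻¹ := by rw [e]
            _ = _ := by group
        exact congrArg Fin.val (bm_inj h3)
      rw [hpq] at e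
      exact Prod.ext (Fin.ext (vfun_inj p.1.2 q.1.2 (mul_right_cancel e))) hpq
    · obtain ⟨n, k, hn, hk, e⟩ := S2_mem x.2
      exact ⟨(⟨n, hn⟩, ⟨k, hk⟩), Subtype.ext e.symm⟩
  rw [← Nat.card_congr (Equiv.ofBijective f hb), Nat.card_prod, Nat.card_fin, Nat.card_fin]

theorem A22_le_Hs : A22 ≤ Hs := by
  rw [A22, Subgroup.closure_le]
  rintro _ ⟨i, rfl⟩
  refine U6.mem_Hs_of_commute ?_
  rw [← bm_zero]
  exact bm_comm 0 i

theorem S2_le_Hs : S2 ≤ Hs := by
  rw [S2, Subgroup.closure_le]
  rintro _ (h | ⟨g, hg, rfl⟩)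
  exacts [A22_le_Hs h, U6.mem_Hs_of_commute (hel_comm (by omega))]

theorem A22_le_S2 : A22 ≤ S2 := fun _ h => Subgroup.subset_closure (Or.inl h)

theorem S2_fixes {z : ℕ} (hz : ∀ g < 4, linI (5 + g) z = z) {t : Spor.Fi22} (ht : t ∈ S2) :
    t * vfun z * t⁻¹ = vfun z := by
  induction ht using Subgroup.closure_induction with
  | mem t h =>
    rcases h with h | ⟨g, hg, rfl⟩
    · rw [(A22_abel h (vfun_mem z)).eq, mul_inv_cancel_right]
    · rw [(linI_spec (by omega) z).2, hz g hg]
  | one => group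
  | mul s t _ _ hs ht =>
    calc _ = s * (t * vfun z * t⁻¹) * s⁻¹ := by group
      _ = _ := by rw [ht, hs]
  | inv s _ hs =>
    calc _ = s⁻¹ * (s * vfun z * s⁻¹) * s := by rw [hs, inv_inv]
      _ = _ := by group

/-- The vectors moved only by a fixed element. -/
def twoSet (T A : Subgroup Spor.Fi22) (z : Spor.Fi22) : Set Spor.Fi22 :=
  {a | a ∈ A ∧ ∀ t ∈ T, t * a * t⁻¹ = a ∨ t * a * t⁻¹ = a * z}

theorem twoSet_card {z : ℕ} (hz : ∀ g < 4, linI (5 + g) z = z) (hz2 : z < 1024) :
    (twoSet S2 A22 (vfun z)).ncard = fcnt z := by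
  classical
  have key : ∀ n < 1024, vfun n ∈ twoSet S2 A22 (vfun z) ↔ ([5, 6, 7, 8].all fun k =>
      Nat.beq (linI k n) n || Nat.beq (linI k n) (Nat.xor n z)) = true := by
    intro n hn
    simp only [List.all_eq_true, Bool.or_eq_true, Nat.beq_eq]
    constructor
    · intro h k hk
      have hk4 : ∃ g < 4, k = 5 + g := by
        simp only [List.mem_cons, List.not_mem_nil, or_false] at hk
        exact ⟨k - 5, by omega, by omega⟩
      obtain ⟨g, hg, rfl⟩ := hk4
      have h2 := linI_spec (k := 5 + g) (by omega) n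
      refine (h.2 _ (Subgroup.subset_closure (Or.inr ⟨g, hg, rfl⟩))).imp (fun e => ?_) fun e => ?_
      · exact vfun_inj h2.1 hn (h2.2.symm.trans e)
      · exact vfun_inj h2.1 (Nat.xor_lt_two_pow (n := 10) hn hz2)
          ((h2.2.symm.trans e).trans (vfun_xor n z).symm)
    · intro h
      refine ⟨vfun_mem n, fun t ht => ?_⟩
      have hzz : vfun z * vfun z = 1 := (A22_span (vfun_mem z)).1
      induction ht using Subgroup.closure_induction with
      | mem t ht =>
        rcases ht with ht | ⟨g, hg, rfl⟩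
        · left; rw [(A22_abel ht (vfun_mem n)).eq, mul_inv_cancel_right]
        · rw [(linI_spec (by omega) n).2]
          refine (h (5 + g) (by simp only [List.mem_cons, List.not_mem_nil, or_false]; omega)).imp
            (fun e => by rw [e]) fun e => by rw [e]; exact vfun_xor n z
      | one => left; group
      | mul s t hs _ ihs iht =>
        have hzs := S2_fixes hz hs
        have e : s * t * vfun n * (s * t)⁻¹ = s * (t * vfun n * t⁻¹) * s⁻¹ := by group
        rw [e]
        rcases iht with iht | iht <;> rw [iht]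
        · exact ihs
        · rw [show s * (vfun n * vfun z) * s⁻¹ = (s * vfun n * s⁻¹) * (s * vfun z * s⁻¹) by group,
            hzs]
          rcases ihs with ihs | ihs <;> rw [ihs]
          · exact Or.inr rfl
          · left; rw [mul_assoc, hzz, mul_one]
      | inv s hs ihs =>
        have hzs := S2_fixes hz hs
        rcases ihs with ihs | ihs
        · left
          calc _ = s⁻¹ * (s * vfun n * s⁻¹) * s := by rw [ihs, inv_inv]
            _ = _ := by group
        · right
          rw [inv_inv]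
          calc s⁻¹ * vfun n * s = s⁻¹ * (vfun n * vfun z * vfun z) * s := by
                rw [mul_assoc (vfun n), hzz, mul_one]
            _ = s⁻¹ * ((s * vfun n * s⁻¹) * (s * vfun z * s⁻¹)) * s := by rw [ihs, hzs]
            _ = _ := by group
  have e : twoSet S2 A22 (vfun z) = vfun '' (↑((List.range 1024).filter fun u => [5, 6, 7, 8].all
      fun k => Nat.beq (linI k u) u || Nat.beq (linI k u) (Nat.xor u z)).toFinset : Set ℕ) := by
    ext a
    simp only [Set.mem_image, List.coe_toFinset, Set.mem_ofPred_eq, List.mem_filter, List.mem_range]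
    constructor
    · intro ha
      obtain ⟨n, hn, rfl⟩ := vfun_surj ha.1
      exact ⟨n, ⟨hn, (key n hn).1 ha⟩, rfl⟩
    · rintro ⟨n, ⟨hn, h⟩, rfl⟩
      exact (key n hn).2 h
  rw [e, Set.InjOn.ncard_image, Set.ncard_coe_finset, fcnt,
    List.toFinset_card_of_nodup ((List.nodup_range).filter _)]
  intro m hm n hn h
  simp only [List.coe_toFinset, Set.mem_ofPred_eq, List.mem_filter, List.mem_range] at hm hn
  exact vfun_inj hm.1 hn.1 h

end CfsgLib.FischerRecog58
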