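import Cfsg.Agent.FischerRecog58.ASylow
import Cfsg.Agent.ThreeTransp.U6Inv53
import Cfsg.Agent.ThreeTransp.M22Nbr

/-!
In the presented Fi22 every involution commuting with the first generator lies, up to conjugacy
under its centralizer, in the group of the base; this group is weakly closed in 2-subgroups.
-/

set_option autoImplicit false
set_option maxRecDepth 100000

namespace CfsgLib.FischerRecog58

open Cfsg CfsgLib.ThreeTransp CfsgLib.CosetEnum CfsgLib.CosetEnum.Fi22

open U6Inv53 in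
theorem inv_in_elem {t : Spor.Fi22} (ht : t ∈ Hs) (h2 : t * t = 1) :
    ∃ E : Subgroup Spor.Fi22, E ≤ Hs ∧ Nat.card E = 1024 ∧ (∀ x ∈ E, x * x = 1) ∧ t ∈ E := by
  have := finite_fi22
  have hD := set22
  obtain ⟨M⟩ := m22_pointModel ttg22 type22 a0_mem
  obtain ⟨l, hl, rfl⟩ := exists_list_of_mem_closure hD (S := nbr D22 U6.a0) (fun _ h => h.1)
    (closure_nbr_a0.symm ▸ ht : t ∈ Subgroup.closure (nbr D22 U6.a0))
  have hsq : (l.map fun x => PSU62.tp M.hF (M.pt x)).prod *
      (l.map fun x => PSU62.tp M.hF (M.pt x)).prod = 1 := by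
    rw [← List.prod_append, ← List.map_append, M.rel _ (fun x hx => (List.mem_append.1 hx).elim (hl x) (hl x))]
    intro e _
    rw [List.prod_append, h2]
    exact Commute.one_right e
  obtain ⟨vs, -, hfr, hvs⟩ := U6Inv53.involution_eq_prod M.hF hsq
  have hex : ∀ v ∈ vs, ∃ x ∈ nbr D22 U6.a0, PSU62.tp M.hF (M.pt x) = PSU62.tp M.hF v :=
    fun v hv => M.onto v (hfr.iso v hv) (hfr.ne0 v hv)
  choose f hf hft using hex
  let xs : List Spor.Fi22 := vs.attach.map fun v => f v.1 v.2
  have hxs : ∀ x ∈ xs, x ∈ nbr D22 U6.a0 := fun x hx => by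
    obtain ⟨v, -, rfl⟩ := List.mem_map.1 hx
    exact hf v.1 v.2
  have hmap : xs.map (fun x => PSU62.tp M.hF (M.pt x)) = vs.map (PSU62.tp M.hF) := by
    rw [List.map_map]
    conv_rhs => rw [← List.attach_map_subtype_val vs, List.map_map]
    exact List.map_congr_left fun v _ => hft v.1 v.2
  have hcomm : ∀ x ∈ xs, ∀ y ∈ xs, Commute x y := by
    intro x hx y hy
    obtain ⟨v, -, rfl⟩ := List.mem_map.1 hx
    obtain ⟨w, -, rfl⟩ := List.mem_map.1 hy
    have hv := (PSU62.tp_commute_iff M.hF (hfr.iso _ v.2) (hfr.iso _ w.2) (hfr.ne0 _ v.2)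
      (hfr.ne0 _ w.2)).2 (hfr.orth _ w.2 _ v.2)
    rw [← hft v.1 v.2, ← hft w.1 w.2, PSU62.tp_commute_iff M.hF (M.iso _ (hf v.1 v.2)).1
      (M.iso _ (hf w.1 w.2)).1 (M.iso _ (hf v.1 v.2)).2 (M.iso _ (hf w.1 w.2)).2] at hv
    exact (M.comm _ (hf v.1 v.2) _ (hf w.1 w.2)).2 hv
  obtain ⟨B, hB, hne, hsub⟩ := clique_extend94 (D := D22)
    (S := insert U6.a0 {x | x ∈ xs}) (Set.insert_nonempty _ _)
    (Set.insert_subset a0_mem fun x hx => (hxs x hx).1)
    (by
      rintro x (rfl | hx) y (rfl | hy)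
      · exact Commute.refl _
      · exact (hxs y hy).2.2
      · exact (hxs x hx).2.2.symm
      · exact hcomm x hx y hy)
  refine ⟨Subgroup.closure B, ?_, m22_base_card_eq94 ttg22 primitive22 type22 hB hne,
    fun x hx => (m22_base_span94 ttg22 primitive22 type22 hB hx).1, ?_⟩
  · rw [Subgroup.closure_le]
    exact fun x hx => U6.mem_Hs_of_commute (hB.comm _ (hsub (Set.mem_insert _ _)) x hx)
  · have hp : xs.prod ∈ Subgroup.closure B :=
      list_prod_mem fun x hx => Subgroup.subset_closure (hsub (Set.mem_insert_of_mem _ hx))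
    have hw : ∀ x ∈ l ++ xs.reverse, x ∈ nbr D22 U6.a0 := fun x hx =>
      (List.mem_append.1 hx).elim (hl x) fun h => hxs x (List.mem_reverse.1 h)
    have hinv : xs.prod⁻¹ = xs.reverse.prod := by
      rw [List.prod_inv_reverse]
      congr 2
      exact (List.map_congr_left fun x hx => tt_inv hD (hxs x hx).1).trans (List.map_id' xs)
    have hrel : ((l ++ xs.reverse).map fun x => PSU62.tp M.hF (M.pt x)).prod = 1 := by
      rw [List.map_append, List.prod_append, List.map_reverse, hmap, hvs]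
      exact prod_mul_prod_reverse M.hF (fun v hv => hfr.iso v hv)
    rcases m22_fixes_of_rel ttg22 primitive22 type22 a0_mem M hw hrel with h | h <;>
      rw [List.prod_append, ← hinv, mul_inv_eq_iff_eq_mul] at h <;> rw [h]
    · exact mul_mem (one_mem _) hp
    · exact mul_mem (Subgroup.subset_closure (hsub (Set.mem_insert _ _))) hp
where
  prod_mul_prod_reverse {F : Type} [Field F] [Fintype F] (hF : Fintype.card F = 4) :
      ∀ {l : List (Fin 6 → F)}, (∀ v ∈ l, PSU62.hm v v = 0) →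
        (l.map (PSU62.tp hF)).prod * (l.map (PSU62.tp hF)).reverse.prod = 1
    | [], _ => by simp
    | v :: l, h => by
      have ih := prod_mul_prod_reverse hF (fun x hx => h x (List.mem_cons_of_mem _ hx))
      rw [List.map_cons, List.prod_cons, List.reverse_cons, List.prod_append, List.prod_singleton,
        mul_assoc, ← mul_assoc (l.map (PSU62.tp hF)).prod, ih, one_mul,
        PSU62.tp, ← QuotientGroup.mk_mul, PSU62.tv_mul_self hF (h v List.mem_cons_self), QuotientGroup.mk_one]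

/-- The group of the base is the only elementary abelian subgroup of order 1024 in a 2-group. -/
theorem A22_unique {P : Subgroup Spor.Fi22} (hP : IsPGroup 2 P) (hA : A22 ≤ P)
    {E : Subgroup Spor.Fi22} (hE : E ≤ P) (he : ∀ x ∈ E, x * x = 1) (hc : Nat.card E = 1024) :
    E = A22 := by
  have := finite_fi22
  obtain ⟨T, hT⟩ := hP.exists_le_sylow
  obtain ⟨B, hB, hne, -, -, -, huniq⟩ := m22_sylow_base94 ttg22 primitive22 type22 T
  have hb := m22_base_card_eq94 ttg22 primitive22 type22 hB hne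
  rw [(huniq E (hE.trans hT) he).2 (by rw [hb, hc]),
    (huniq A22 (hA.trans hT) fun x hx => (A22_span hx).1).2 (by rw [hb, card_A22])]

/-- An elementary abelian subgroup of order 1024 of the centralizer is conjugate to the base group
in that centralizer. -/
theorem elem_conj {E : Subgroup Spor.Fi22} (hE : E ≤ Hs) (he : ∀ x ∈ E, x * x = 1)
    (hc : Nat.card E = 1024) : ∃ c ∈ Hs, E.map (MulAut.conj c).toMonoidHom = A22 := by
  have := finite_fi22
  have : Fact (Nat.Prime 2) := ⟨Nat.prime_two⟩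
  have h2 : ∀ {K : Subgroup Spor.Fi22}, (∀ x ∈ K, x * x = 1) → IsPGroup 2 (K.subgroupOf Hs) :=
    fun {K} hK x => ⟨1, Subtype.ext (Subtype.ext (by
      rw [pow_one, pow_two]
      exact hK _ x.2))⟩
  obtain ⟨P, hP⟩ := (h2 he).exists_le_sylow
  obtain ⟨Q, hQ⟩ := (h2 fun x hx => (A22_span hx).1).exists_le_sylow
  obtain ⟨c, hcPQ⟩ := MulAction.exists_smul_eq (↥Hs) P Q
  refine ⟨c, c.2, A22_unique (P := (Q : Subgroup ↥Hs).map Hs.subtype) (Q.2.map Hs.subtype) ?_ ?_ ?_ ?_⟩
  · intro x hx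
    exact ⟨⟨x, A22_le_Hs hx⟩, hQ hx, rfl⟩
  · rintro _ ⟨x, hx, rfl⟩
    refine ⟨c * ⟨x, hE hx⟩ * c⁻¹, ?_, rfl⟩
    rw [SetLike.mem_coe, ← hcPQ, Sylow.coe_subgroup_smul]
    exact Subgroup.smul_mem_pointwise_smul (⟨x, hE hx⟩ : ↥Hs) (MulAut.conj c) _ (hP hx)
  · rintro _ ⟨x, hx, rfl⟩
    rw [← map_mul, he x hx, map_one]
  · rw [← hc]
    exact (Nat.card_congr
      (Subgroup.equivMapOfInjective E _ (MulAut.conj (c : Spor.Fi22)).injective).toEquiv).symm

end CfsgLib.FischerRecog58
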