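import Cfsg.Agent.FischerRecog58.Cover
import Cfsg.Agent.FischerRecog58.InvSpan
import Cfsg.Agent.SmallIso.FieldChange
import Cfsg.Prelude.Def_CaseTheorems

/-!
A centralizer which is a quasisimple double cover of PSU₆(2) is the centralizer of the first
generator in the presented Fi22.
-/

set_option autoImplicit false
set_option maxRecDepth 100000

namespace CfsgLib.FischerRecog58

open Cfsg CfsgLib.CosetEnum CfsgLib.CosetEnum.Fi22
open CfsgLib.CosetEnum.Suz.G2 (F4)

universe u

variable {G : Type u} [Group G]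

theorem self_mem_cent (d : G) : d ∈ Subgroup.centralizer ({d} : Set G) :=
  Subgroup.mem_centralizer_iff.2 fun x hx => by rw [Set.mem_singleton_iff.1 hx]

theorem mem_cent_iff {d g : G} : g ∈ Subgroup.centralizer ({d} : Set G) ↔ Commute d g :=
  ⟨fun h => Subgroup.mem_centralizer_iff.1 h d rfl,
    fun h => Subgroup.mem_centralizer_iff.2 fun x hx => by rw [Set.mem_singleton_iff.1 hx]; exact h⟩

/-- An isomorphism of the centralizer with the one in the presented Fi22. -/
structure Chart (d : G) where
  /-- the isomorphism -/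
  θ : ↥(Subgroup.centralizer ({d} : Set G)) ≃* ↥Hs
  θd : ((θ ⟨d, self_mem_cent d⟩ : ↥Hs) : Spor.Fi22) = U6.a0

theorem center_Hs_cases {z : Hs} (hz : z ∈ Subgroup.center Hs) :
    z = 1 ∨ (z : Spor.Fi22) = U6.a0 := by
  have := finite_fi22
  obtain ⟨x, -, hu⟩ := (Nat.card_eq_two_iff' (1 : Subgroup.center Hs)).1 U6.nonsplit_Hs.1
  by_cases h1 : z = 1
  · exact Or.inl h1
  refine Or.inr ?_
  have ha : (⟨U6.a0, U6.mem_Hs_of_commute rfl⟩ : Hs) ∈ Subgroup.center Hs :=
    Subgroup.mem_center_iff.2 fun g => Subtype.ext (U6.commute_of_mem g.2).symm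
  have e1 := hu ⟨z, hz⟩ fun h => h1 (congrArg Subtype.val h)
  have e2 := hu ⟨_, ha⟩ fun h => U6.a0_ne (congrArg (fun w : Subgroup.center Hs => ((w : Hs) : Spor.Fi22)) h)
  exact congrArg (fun w : Subgroup.center Hs => ((w : Hs) : Spor.Fi22)) (e1.trans e2.symm)

/-- The chart exists under the hypotheses of the recognition. -/
theorem exists_chart [Finite G] (d : G) (hd : orderOf d = 2)
    (hq : Cfsg.IsQuasisimple (Subgroup.centralizer ({d} : Set G)))
    [((Subgroup.zpowers d).subgroupOf (Subgroup.centralizer ({d} : Set G))).Normal]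
    (K : Type) [Field K] [Fintype K] (hK : Fintype.card K = 4)
    (e : (Subgroup.centralizer ({d} : Set G)) ⧸
      (Subgroup.zpowers d).subgroupOf (Subgroup.centralizer ({d} : Set G)) ≃* Cfsg.PSU 6 K 2) :
    Nonempty (Chart d) := by
  set C := Subgroup.centralizer ({d} : Set G)
  let f := (CfsgLib.FieldChange.psuEquiv (FiniteField.ringEquivOfCardEq
    (K := F4) (K' := K) (by rw [hK, F4.card_eq])) 6 2)
  let ρ : C →* Cfsg.PSU 6 F4 2 :=
    (e.trans f.symm).toMonoidHom.comp (QuotientGroup.mk' _)
  have hρk : ρ.ker = (Subgroup.zpowers d).subgroupOf C := by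
    ext x
    rw [MonoidHom.mem_ker]
    exact ((e.trans f.symm).map_eq_one_iff).trans (QuotientGroup.eq_one_iff x)
  have hle : Subgroup.zpowers d ≤ C := Subgroup.zpowers_le.2 (self_mem_cent d)
  have hc : ρ.ker ≤ Subgroup.center C := by
    intro x hx
    rw [hρk, Subgroup.mem_subgroupOf, Subgroup.mem_zpowers_iff] at hx
    obtain ⟨n, hn⟩ := hx
    refine Subgroup.mem_center_iff.2 fun g => Subtype.ext ?_
    show (g : G) * x = x * g
    rw [← hn]
    exact ((mem_cent_iff.1 g.2).zpow_left n).eq.symm
  have h2 : Nat.card ρ.ker = 2 := by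
    rw [hρk, Nat.card_congr (Subgroup.subgroupOfEquivOfLe hle).toEquiv, Nat.card_zpowers, hd]
  have hρs : Function.Surjective ρ :=
    (e.trans f.symm).surjective.comp (QuotientGroup.mk'_surjective _)
  have hperf : commutator C = ⊤ := hq.1.1
  have ψ : Shrink.{0} C ≃* C := Shrink.mulEquiv
  have hperf' : commutator (Shrink.{0} C) = ⊤ := by
    have h := congrArg (Subgroup.map ψ.symm.toMonoidHom) hperf
    rwa [commutator_def, Subgroup.map_commutator,
      Subgroup.map_top_of_surjective _ ψ.symm.surjective, ← commutator_def] at h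
  have : Finite (Shrink.{0} C) := Finite.of_equiv C ψ.symm.toEquiv
  obtain ⟨θ0⟩ := double_cover_unique hperf' (ρ.comp ψ.toMonoidHom) (hρs.comp ψ.surjective)
    (fun x hx => Subgroup.mem_center_iff.2 fun g => ψ.injective (by
      rw [map_mul, map_mul]
      exact Subgroup.mem_center_iff.1 (hc (show ψ x ∈ ρ.ker from hx)) (ψ g)))
    (by
      refine Eq.trans ?_ h2
      exact Nat.card_congr
        { toFun := fun x => ⟨ψ x, x.2⟩
          invFun := fun y => ⟨ψ.symm y, by
            rw [MonoidHom.mem_ker, MonoidHom.comp_apply, MulEquiv.coe_toMonoidHom,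
              MulEquiv.apply_symm_apply]
            exact y.2⟩
          left_inv := fun x => Subtype.ext (ψ.symm_apply_apply x)
          right_inv := fun y => Subtype.ext (ψ.apply_symm_apply y) })
  let θ : C ≃* Hs := (ψ.symm.trans θ0).trans
    ((MulEquiv.subgroupCongr cl_H).trans (Subgroup.equivMapOfInjective Hs pi pi_injective).symm)
  refine ⟨⟨θ, ?_⟩⟩
  have hd1 : θ ⟨d, self_mem_cent d⟩ ∈ Subgroup.center Hs := by
    refine Subgroup.mem_center_iff.2 fun g => ?_
    obtain ⟨x, rfl⟩ := θ.surjective g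
    rw [← map_mul, ← map_mul]
    exact congrArg θ (Subtype.ext (mem_cent_iff.1 x.2).eq.symm)
  refine (center_Hs_cases hd1).resolve_left fun h => ?_
  have := congrArg Subtype.val (θ.injective (h.trans (map_one θ).symm))
  rw [show d = 1 from this, orderOf_one] at hd
  omega

end CfsgLib.FischerRecog58
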