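import Cfsg.Agent.FischerRecog58.FusionMain

/-!
Charts at the conjugates: the conjugates commuting with one are its neighbours in the chart.
-/

set_option autoImplicit false
set_option maxRecDepth 100000

namespace CfsgLib.FischerRecog58

open Cfsg CfsgLib.ThreeTransp CfsgLib.CosetEnum CfsgLib.CosetEnum.Fi22

universe u

variable {G : Type u} [Group G]

/-- The chart at a conjugate. -/
theorem Chart.exists_conj {d : G} (X : Chart d) (g : G) : Nonempty (Chart (g * d * g⁻¹)) := by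
  have hmap : (Subgroup.centralizer ({d} : Set G)).map (MulAut.conj g).toMonoidHom =
      Subgroup.centralizer ({g * d * g⁻¹} : Set G) := by
    ext y
    rw [Subgroup.mem_map, mem_cent_iff]
    constructor
    · rintro ⟨z, hz, rfl⟩
      exact (mem_cent_iff.1 hz).map (MulAut.conj g).toMonoidHom
    · intro hy
      refine ⟨g⁻¹ * y * g, mem_cent_iff.2 ?_, show g * (g⁻¹ * y * g) * g⁻¹ = y by group⟩
      have h := hy.map (MulAut.conj g⁻¹).toMonoidHom
      simpa [mul_assoc] using h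
  let e : ↥(Subgroup.centralizer ({d} : Set G)) ≃* ↥(Subgroup.centralizer ({g * d * g⁻¹} : Set G)) :=
    (Subgroup.equivMapOfInjective _ _ (MulAut.conj g).injective).trans (MulEquiv.subgroupCongr hmap)
  refine ⟨⟨e.symm.trans X.θ, ?_⟩⟩
  have he : e.symm ⟨g * d * g⁻¹, self_mem_cent _⟩ = ⟨d, self_mem_cent d⟩ :=
    (MulEquiv.symm_apply_eq e).2 (Subtype.ext rfl)
  show ((X.θ (e.symm _) : ↥Hs) : Spor.Fi22) = U6.a0
  rw [he]
  exact X.θd

/-- The chart followed by conjugation in the presented centralizer. -/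
noncomputable def Chart.twist {d : G} (X : Chart d) (h : ↥Hs) : Chart d where
  θ := X.θ.trans (MulAut.conj h)
  θd := by
    show ((h * X.θ ⟨d, self_mem_cent d⟩ * h⁻¹ : ↥Hs) : Spor.Fi22) = U6.a0
    rw [Subgroup.coe_mul, Subgroup.coe_mul, X.θd, Subgroup.coe_inv, ← U6.commute_of_mem h.2,
      mul_inv_cancel_right]

theorem Chart.twist_inc {d : G} (X : Chart d) (h : ↥Hs) (t : ↥Hs) :
    (X.twist h).inc t = X.inc (h⁻¹ * t * h) := by
  show ((X.θ.trans (MulAut.conj h)).symm t : G) = _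
  refine congrArg Subtype.val ?_
  refine (MulEquiv.symm_apply_eq _).2 ?_
  show t = h * X.θ (X.θ.symm (h⁻¹ * t * h)) * h⁻¹
  rw [X.θ.apply_symm_apply]
  group

/-- A neighbour of the generator, in the centralizer. -/
noncomputable def nH (t : Spor.Fi22) (h : t ∈ nbr D22 U6.a0) : ↥Hs := ⟨t, U6.mem_Hs_of_commute h.2.2⟩

/-- The hypotheses: a transposition with a chart, not weakly closed. -/
structure Hyp (d : G) : Prop where
  chart : Nonempty (Chart d)
  nwc : ∃ e ∈ conjugatesOf d, e ≠ d ∧ Commute d e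

variable {d : G}

theorem conj_mem_class (g : G) {x : G} (hx : x ∈ conjugatesOf d) :
    g * x * g⁻¹ ∈ conjugatesOf d := IsConj.trans hx (isConj_iff.2 ⟨g, rfl⟩)

theorem class_eq {a : G} (ha : a ∈ conjugatesOf d) : conjugatesOf a = conjugatesOf d := by
  ext x
  exact ⟨fun h => IsConj.trans ha h, fun h => IsConj.trans (IsConj.symm ha) h⟩

theorem Hyp.at (H : Hyp d) {a : G} (ha : a ∈ conjugatesOf d) : Hyp a := by
  obtain ⟨g, rfl⟩ := isConj_iff.1 (show IsConj d a from ha)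
  obtain ⟨X⟩ := H.chart
  obtain ⟨e, he, hne, hc⟩ := H.nwc
  refine ⟨X.exists_conj g, g * e * g⁻¹, ?_, fun h => hne (mul_left_cancel (mul_right_cancel h)), ?_⟩
  · rw [class_eq ha]; exact conj_mem_class g he
  · exact hc.map (MulAut.conj g).toMonoidHom

theorem Chart.d_ne_one (X : Chart d) : d ≠ 1 := fun h => U6.a0_ne (by
  rw [← X.θd, show (⟨d, self_mem_cent d⟩ : ↥(Subgroup.centralizer ({d} : Set G))) = 1 from
    Subtype.ext h, map_one]
  rfl)

variable [Finite G]

theorem Chart.nbr_iff (H : Hyp d) (X : Chart d) {y : G} :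
    y ∈ nbr (conjugatesOf d) d ↔ ∃ t, ∃ h : t ∈ nbr D22 U6.a0, X.inc (nH t h) = y := by
  have := finite_fi22
  have hfwd : ∀ {y : G}, y ∈ nbr (conjugatesOf d) d → ∃ t, ∃ h : t ∈ nbr D22 U6.a0,
      X.inc (nH t h) = y := by
    intro y hy
    refine ⟨_, X.fusion X.d_ne_one hy.1 hy.2.1 hy.2.2, ?_⟩
    exact congrArg Subtype.val (X.θ.symm_apply_apply _)
  refine ⟨hfwd, ?_⟩
  rintro ⟨t, ht, rfl⟩
  obtain ⟨e, he, hne, hc⟩ := H.nwc
  obtain ⟨s, hs, hse⟩ := hfwd (y := e) ⟨he, hne, hc⟩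
  obtain ⟨g, hga, hgs⟩ := m22_pair_conj ttg22 primitive22 type22 a0_mem hs a0_mem ht
  have hg : g ∈ Hs := U6.mem_Hs_of_commute (mul_inv_eq_iff_eq_mul.1 hga).symm
  refine ⟨?_, fun h => ht.2.1 ?_, X.inc_commute _⟩
  · have : X.inc (nH t ht) = X.inc ⟨g, hg⟩ * e * (X.inc ⟨g, hg⟩)⁻¹ := by
      rw [← hse, ← map_mul, ← map_inv, ← map_mul]
      exact congrArg X.inc (Subtype.ext hgs.symm)
    rw [this]
    exact conj_mem_class _ he
  · exact congrArg Subtype.val (X.inc_injective (h.trans X.inc_aH.symm))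

theorem Chart.commute_inc (X : Chart d) {s t : ↥Hs} :
    Commute (X.inc s) (X.inc t) ↔ Commute (s : Spor.Fi22) t := by
  constructor
  · intro h
    exact congrArg Subtype.val (X.inc_injective (by rw [map_mul, map_mul]; exact h.eq) :
      s * t = t * s)
  · intro h
    exact (show Commute s t from Subtype.ext h.eq).map X.inc

theorem Chart.inc_mem (H : Hyp d) (X : Chart d) {t : ↥Hs} (ht : (t : Spor.Fi22) ∈ nbr D22 U6.a0) :
    X.inc t ∈ nbr (conjugatesOf d) d :=
  (X.nbr_iff H).2 ⟨_, ht, congrArg X.inc (Subtype.ext rfl)⟩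

/-- A chart with a given neighbour at the marked point. -/
theorem exists_chart_at (H : Hyp d) {a x : G} (ha : a ∈ conjugatesOf d)
    (hx : x ∈ nbr (conjugatesOf d) a) {t : Spor.Fi22} (ht : t ∈ nbr D22 U6.a0) :
    ∃ X : Chart a, X.inc (nH t ht) = x := by
  have := finite_fi22
  have H' := H.at ha
  obtain ⟨X⟩ := H'.chart
  obtain ⟨s, hs, e⟩ := (X.nbr_iff H').1 (by rw [class_eq ha]; exact hx)
  obtain ⟨g, hga, hgs⟩ := m22_pair_conj ttg22 primitive22 type22 a0_mem hs a0_mem ht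
  have hg : g ∈ Hs := U6.mem_Hs_of_commute (mul_inv_eq_iff_eq_mul.1 hga).symm
  refine ⟨X.twist ⟨g, hg⟩, ?_⟩
  rw [X.twist_inc, ← e]
  refine congrArg X.inc (Subtype.ext ?_)
  show g⁻¹ * t * g = s
  rw [← hgs]
  group

end CfsgLib.FischerRecog58
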