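import Cfsg.Agent.FischerRecog58.LModel

/-!
Every member commuting with the first generator commutes with a common neighbour of the first two.
-/

set_option autoImplicit false
set_option maxRecDepth 100000
set_option maxHeartbeats 8000000

namespace CfsgLib.FischerRecog58

open CfsgLib.CosetEnum CfsgLib.CosetEnum.Fi22

theorem diam_check : allBelow (fun i =>
    !Nat.beq (runT Tab.perm.T Tab.perm.L [0] i) i || Nat.beq i 0 ||
      LData.words.any (fun v => Nat.beq (runT Tab.perm.T Tab.perm.L (palW v) i) i)) 3510 = true := by
  decide +kernel

end CfsgLib.FischerRecog58
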