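import Cfsg.Agent.FischerRecog58.SectionOuter
import Cfsg.Agent.FischerRecog58.DiamCheck
import Cfsg.Agent.ThreeTransp.M22Primitive

/-!
The component of a transposition in the commuting graph: it has diameter two, consists of
transpositions, and the subgroup it generates is of type M(22).
-/

set_option autoImplicit false
set_option maxRecDepth 100000

namespace CfsgLib.FischerRecog58

open Cfsg CfsgLib.ThreeTransp CfsgLib.CosetEnum CfsgLib.CosetEnum.Fi22
open CfsgLib.CosetEnum.Suz.G2 (F4)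

universe u v

theorem closure_congr {A : Type u} {B : Type v} {K : Type*} [Group A] [Group B] [Group K]
    (f : A →* K) (g : B →* K) (hf : Function.Injective f) (hg : Function.Injective g)
    {S : Set A} {T : Set B} (h : f '' S = g '' T) :
    Nonempty (↥(Subgroup.closure S) ≃* ↥(Subgroup.closure T)) :=
  ⟨((Subgroup.equivMapOfInjective _ f hf).trans (MulEquiv.subgroupCongr (by
    rw [MonoidHom.map_closure, MonoidHom.map_closure, h]))).trans
    (Subgroup.equivMapOfInjective _ g hg).symm⟩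

theorem closure_in_Hs {T : Set Spor.Fi22} (hT : T ⊆ (Hs : Set Spor.Fi22)) :
    Nonempty (↥(Subgroup.closure {t : ↥Hs | (t : Spor.Fi22) ∈ T}) ≃* ↥(Subgroup.closure T)) := by
  refine closure_congr Hs.subtype (MonoidHom.id _) (Subgroup.subtype_injective _)
    Function.injective_id ?_
  ext t
  constructor
  · rintro ⟨s, hs, rfl⟩; exact ⟨(s : Spor.Fi22), hs, rfl⟩
  · rintro ⟨s, hs, rfl⟩; exact ⟨⟨s, hT hs⟩, hs, rfl⟩

theorem nbr_symm {G : Type u} [Group G] {D : Set G} {a x : G} (ha : a ∈ D) (hx : x ∈ nbr D a) :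
    a ∈ nbr D x :=
  ⟨ha, hx.2.1.symm, hx.2.2.symm⟩

variable {G : Type u} [Group G] [Finite G] {d : G}

theorem Chart.mul_self (X : Chart d) : d * d = 1 := by
  rw [← X.inc_aH, ← map_mul,
    show aH * aH = 1 from Subtype.ext (tt_mul_self set22 a0_mem), map_one]

theorem Hyp.orderOf_eq (H : Hyp d) : orderOf d = 2 := by
  obtain ⟨X⟩ := H.chart
  exact orderOf_eq_prime (by rw [pow_two]; exact X.mul_self) X.d_ne_one

theorem Hyp.nbr_iff (H : Hyp d) {a : G} (ha : a ∈ conjugatesOf d) (X : Chart a) {y : G} :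
    y ∈ nbr (conjugatesOf d) a ↔ ∃ t, ∃ h : t ∈ nbr D22 U6.a0, X.inc (nH t h) = y := by
  rw [← class_eq ha]
  exact X.nbr_iff (H.at ha)

/-- Two adjacent members have a common neighbour. -/
theorem exists_common (H : Hyp d) {a b : G} (ha : a ∈ conjugatesOf d)
    (hb : b ∈ nbr (conjugatesOf d) a) :
    ∃ w, w ∈ nbr (conjugatesOf d) a ∧ w ∈ nbr (conjugatesOf d) b := by
  obtain ⟨X, hX⟩ := exists_chart_at H ha hb gM_nbr
  obtain ⟨h1, h2⟩ := rM_R (show 0 < 180 by norm_num)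
  have hw : X.inc (rH 0) ∈ nbr (conjugatesOf d) a :=
    (H.nbr_iff ha X).2 ⟨_, h1, congrArg X.inc (Subtype.ext rfl)⟩
  refine ⟨_, hw, hw.1, fun e => h2.2.1 (congrArg Subtype.val (X.inc_injective (e.trans hX.symm))), ?_⟩
  rw [← hX, X.commute_inc]
  exact h2.2.2

/-- A member far from another at distance two. -/
theorem exists_far (H : Hyp d) {a : G} (ha : a ∈ conjugatesOf d) :
    ∃ v c, Conf d a v c := by
  have := finite_fi22
  obtain ⟨X⟩ := (H.at ha).chart
  obtain ⟨v, hv⟩ : ∃ v, v ∈ nbr (conjugatesOf d) a := by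
    obtain ⟨e, he, hne, hc⟩ := (H.at ha).nwc
    exact ⟨e, class_eq ha ▸ he, hne, hc⟩
  obtain ⟨Y, hY⟩ := exists_chart_at H hv.1 (nbr_symm ha hv) gM_nbr
  have hc := fars_check
  simp only [Bool.and_eq_true, decide_eq_true_eq, Nat.beq_eq] at hc
  obtain ⟨⟨⟨⟨⟨⟨⟨⟨hmask, hall⟩, -⟩, h0⟩, -⟩, -⟩, hlen⟩, -⟩, -⟩ := hc
  set y : D22 := ⟨qM, mw_mem _⟩
  have hp : (memPt y : ℕ) = SData.fars.getD 0 0 := by rw [h0]; exact pt_mw q0W_lt
  have hbit : SData.fmask.testBit (memPt y : ℕ) = true := by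
    rw [← hmask, testBit_maskOf, hp,
      List.getD_eq_getElem _ _ (by omega : 0 < SData.fars.length)]
    exact List.getElem_mem _
  have h := (Model.allBelow_iff _ _).1 hall (memPt y) (memPt y).2
  simp only [beq_iff_eq, hbit] at h
  simp only [eq_comm (a := true), Bool.and_eq_true, Nat.beq_eq, Bool.not_eq_true',
    ← Bool.not_eq_true, fixesW_iff gW_lt] at h
  have hq : qM ∈ nbr D22 U6.a0 :=
    ⟨mw_mem _, fun e => h.2 (show Commute gM qM from e ▸ gM_nbr.2.2.symm), (fix0_iff y).1 h.1⟩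
  have hcn : Y.inc (nH qM hq) ∈ nbr (conjugatesOf d) v := (H.nbr_iff hv.1 Y).2 ⟨_, hq, rfl⟩
  refine ⟨v, _, ⟨ha, hv, hcn, fun hcom => h.2 ?_⟩⟩
  rw [← hY, Y.commute_inc] at hcom
  exact hcom

/-- The component: members at distance at most two. -/
def comp (d a : G) : Set G :=
  {w | w = a ∨ w ∈ nbr (conjugatesOf d) a ∨
    ∃ v ∈ nbr (conjugatesOf d) a, w ∈ nbr (conjugatesOf d) v}

theorem self_comp (a : G) : a ∈ comp d a := Or.inl rfl

theorem nbr_comp {a x : G} (hx : x ∈ nbr (conjugatesOf d) a) : x ∈ comp d a := Or.inr (Or.inl hx)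

theorem comp_mem {a x : G} (ha : a ∈ conjugatesOf d) (hx : x ∈ comp d a) : x ∈ conjugatesOf d := by
  rcases hx with rfl | hx | ⟨v, -, hx⟩
  · exact ha
  · exact hx.1
  · exact hx.1

theorem comp_step (H : Hyp d) {a v c e : G} (ha : a ∈ conjugatesOf d)
    (hv : v ∈ nbr (conjugatesOf d) a) (hc : c ∈ nbr (conjugatesOf d) v)
    (he : e ∈ nbr (conjugatesOf d) c) : e ∈ comp d a := by
  have := finite_fi22
  by_cases hac : Commute a c
  · by_cases h : c = a
    · exact nbr_comp (h ▸ he)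
    · exact Or.inr (Or.inr ⟨c, ⟨hc.1, h, hac⟩, he⟩)
  obtain ⟨X, hX, hY22⟩ := conf_chart H (a := c) (x := v) (c := a)
    ⟨hc.1, nbr_symm hv.1 hc, nbr_symm ha hv, fun h => hac h.symm⟩
  obtain ⟨t, ht, rfl⟩ := (H.nbr_iff hc.1 X).1 he
  have hd := (Model.allBelow_iff _ _).1 diam_check (memPt ⟨t, ht.1⟩) (memPt ⟨t, ht.1⟩).2
  simp only [Bool.or_eq_true, List.any_eq_true, Bool.not_eq_true', ← Bool.not_eq_true,
    Nat.beq_eq] at hd
  rcases hd with (h | h) | ⟨w, hw, hfix⟩
  · exact absurd ((fix0_iff ⟨t, ht.1⟩).2 ht.2.2) h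
  · exact absurd ((memPt_eq_zero_iff ⟨t, ht.1⟩).1 h) ht.2.1
  · obtain ⟨i, hi, rfl⟩ := List.mem_iff_getElem.1 hw
    have hi' : i < 126 := words_len ▸ hi
    have hlw : lw ⟨i, hi'⟩ = LData.words[i] := List.getD_eq_getElem _ _ hi
    have hy := lw_mem ⟨i, hi'⟩
    rw [hlw] at hy
    have hlt := hlw ▸ lw_lt ⟨i, hi'⟩
    have hcom : Commute (mw LData.words[i]) t := by
      rw [commute_iff_fix _ ⟨t, ht.1⟩]
      refine Fin.ext ?_
      rw [pi_mw_val _ hlt]
      exact hfix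
    set y := X.inc (nH _ hy.1) with hy'
    have hyn : y ∈ nbr (conjugatesOf d) c := (H.nbr_iff hc.1 X).2 ⟨_, hy.1, rfl⟩
    have hay : Commute a y := (hY22 _ hy.1).2 hy
    have hya : y ∈ nbr (conjugatesOf d) a :=
      ⟨hyn.1, fun e => hac (e ▸ hyn.2.2).symm, hay⟩
    have hcomm : Commute y (X.inc (nH t ht)) := X.commute_inc.2 hcom
    by_cases h : X.inc (nH t ht) = y
    · exact h ▸ nbr_comp hya
    · exact Or.inr (Or.inr ⟨y, hya, he.1, h, hcomm⟩)
where
  words_len : LData.words.length = 126 := by decide +kernel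

theorem comp_closed (H : Hyp d) {a x y : G} (ha : a ∈ conjugatesOf d) (hx : x ∈ comp d a)
    (hy : y ∈ nbr (conjugatesOf d) x) : y ∈ comp d a := by
  rcases hx with rfl | hx | ⟨v, hv, hx⟩
  · exact nbr_comp hy
  · exact Or.inr (Or.inr ⟨x, hx, hy⟩)
  · exact comp_step H ha hv hx hy

theorem comp_symm {a x : G} (ha : a ∈ conjugatesOf d) (hx : x ∈ comp d a) : a ∈ comp d x := by
  rcases hx with rfl | hx | ⟨v, hv, hx⟩
  · exact self_comp _
  · exact nbr_comp (nbr_symm ha hx)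
  · exact Or.inr (Or.inr ⟨v, nbr_symm hv.1 hx, nbr_symm ha hv⟩)

theorem comp_trans (H : Hyp d) {a b x : G} (ha : a ∈ conjugatesOf d) (hb : b ∈ comp d a)
    (hx : x ∈ comp d b) : x ∈ comp d a := by
  rcases hx with rfl | hx | ⟨v, hv, hx⟩
  · exact hb
  · exact comp_closed H ha hb hx
  · exact comp_closed H ha (comp_closed H ha hb hv) hx

theorem comp_eq (H : Hyp d) {a b : G} (ha : a ∈ conjugatesOf d) (hb : b ∈ comp d a) :
    comp d b = comp d a :=
  Set.ext fun _ => ⟨comp_trans H ha hb, comp_trans H (comp_mem ha hb) (comp_symm ha hb)⟩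

theorem comp_conj (g : G) (a : G) {x : G} (hx : x ∈ comp d a) :
    g * x * g⁻¹ ∈ comp d (g * a * g⁻¹) := by
  have hn : ∀ {a x : G}, x ∈ nbr (conjugatesOf d) a →
      g * x * g⁻¹ ∈ nbr (conjugatesOf d) (g * a * g⁻¹) := fun h =>
    ⟨conj_mem_class g h.1, fun e => h.2.1 (mul_left_cancel (mul_right_cancel e)),
      h.2.2.map (MulAut.conj g).toMonoidHom⟩
  rcases hx with rfl | hx | ⟨v, hv, hx⟩
  · exact self_comp _
  · exact nbr_comp (hn hx)
  · exact Or.inr (Or.inr ⟨_, hn hv, hn hx⟩)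

theorem comp_braid (H : Hyp d) {a x y : G} (ha : a ∈ conjugatesOf d) (hx : x ∈ comp d a)
    (hy : y ∈ comp d a) : (x * y) ^ 2 = 1 ∨ (x * y) ^ 3 = 1 := by
  have hord : ∀ {z : G}, z ∈ conjugatesOf d → z * z = 1 := fun {z} hz => by
    obtain ⟨X⟩ := (H.at hz).chart; exact X.mul_self
  have hxD := comp_mem ha hx
  by_cases hc : Commute x y
  · exact Or.inl (by rw [hc.mul_pow, pow_two, pow_two, hord hxD, hord (comp_mem ha hy), one_mul])
  rw [← comp_eq H ha hx] at hy
  rcases hy with rfl | hy | ⟨v, hv, hy⟩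
  · exact absurd (Commute.refl _) hc
  · exact absurd hy.2.2 hc
  · obtain ⟨X⟩ := (H.at hv.1).chart
    obtain ⟨s, hs, rfl⟩ := (H.nbr_iff hv.1 X).1 (nbr_symm hxD hv)
    obtain ⟨t, ht, rfl⟩ := (H.nbr_iff hv.1 X).1 hy
    rw [X.commute_inc] at hc
    rcases set22.2 _ hs.1 _ ht.1 with h | h
    · refine Or.inl ?_
      rw [← map_mul, ← map_pow, show (nH s hs * nH t ht) ^ 2 = 1 from Subtype.ext h, map_one]
    · refine Or.inr ?_
      rw [← map_mul, ← map_pow, show (nH s hs * nH t ht) ^ 3 = 1 from Subtype.ext h, map_one]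

/-- The subgroup generated by the component. -/
def cH (d : G) : Subgroup G := Subgroup.closure (comp d d)

/-- The component inside that subgroup. -/
def cD (d : G) : Set ↥(cH d) := {x | (x : G) ∈ comp d d}

theorem mem_cH {x : G} (hx : x ∈ comp d d) : x ∈ cH d := Subgroup.subset_closure hx

theorem cent_le (H : Hyp d) {w g : G} (hw : w ∈ comp d d) (hg : Commute w g) : g ∈ cH d := by
  have hwD := comp_mem mem_conjugatesOf_self hw
  obtain ⟨X⟩ := (H.at hwD).chart
  obtain ⟨h, rfl⟩ := X.exists_inc hg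
  set K := (cH d).comap X.inc with hK
  have hle : Subgroup.closure (nbr D22 U6.a0) ≤ K.map Hs.subtype := by
    refine (Subgroup.closure_le _).2 fun t ht => ⟨nH t ht, ?_, rfl⟩
    show X.inc (nH t ht) ∈ cH d
    exact mem_cH (comp_closed H mem_conjugatesOf_self hw ((H.nbr_iff hwD X).2 ⟨t, ht, rfl⟩))
  rw [closure_nbr_a0] at hle
  obtain ⟨k, hk, e⟩ := hle h.2
  rw [← (Subtype.ext e : k = h)]
  exact hk

theorem comp_transitive (H : Hyp d) {x : G} (hx : x ∈ comp d d) :
    ∃ h ∈ cH d, h * d * h⁻¹ = x := by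
  have := finite_fi22
  have hstep : ∀ {a b : G}, a ∈ comp d d → b ∈ nbr (conjugatesOf d) a →
      ∃ h ∈ cH d, h * a * h⁻¹ = b := by
    intro a b ha hb
    have haD := comp_mem mem_conjugatesOf_self ha
    obtain ⟨w, hwa, hwb⟩ := exists_common H haD hb
    have hwc := comp_closed H mem_conjugatesOf_self ha hwa
    obtain ⟨X⟩ := (H.at hwa.1).chart
    obtain ⟨s, hs, rfl⟩ := (H.nbr_iff hwa.1 X).1 (nbr_symm haD hwa)
    obtain ⟨t, ht, rfl⟩ := (H.nbr_iff hwa.1 X).1 (nbr_symm hb.1 hwb)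
    obtain ⟨g, hga, hgs⟩ := m22_pair_conj ttg22 primitive22 type22 a0_mem hs a0_mem ht
    have hg : g ∈ Hs := U6.mem_Hs_of_commute (mul_inv_eq_iff_eq_mul.1 hga).symm
    refine ⟨X.inc ⟨g, hg⟩, cent_le H hwc (X.inc_commute _), ?_⟩
    rw [← map_mul, ← map_inv, ← map_mul]
    exact congrArg X.inc (Subtype.ext hgs)
  rcases hx with rfl | hx | ⟨v, hv, hx⟩
  · exact ⟨1, one_mem _, by group⟩
  · exact hstep (self_comp d) hx
  · obtain ⟨h1, m1, e1⟩ := hstep (self_comp d) hv
    obtain ⟨h2, m2, e2⟩ := hstep (nbr_comp hv) hx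
    refine ⟨h2 * h1, mul_mem m2 m1, ?_⟩
    rw [← e2, ← e1]
    group

theorem comp_move (H : Hyp d) {g a : G} (ha : a ∈ comp d d) (hg : g * a * g⁻¹ ∈ comp d d) :
    g ∈ cH d := by
  obtain ⟨h1, m1, e1⟩ := comp_transitive H ha
  obtain ⟨h2, m2, e2⟩ := comp_transitive H hg
  have h : h2⁻¹ * g * h1 ∈ cH d := by
    refine cent_le H (self_comp d) (Commute.symm (show h2⁻¹ * g * h1 * d = d * (h2⁻¹ * g * h1) from ?_))
    calc _ = h2⁻¹ * g * (h1 * d * h1⁻¹) * g⁻¹ * (g * h1) := by group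
      _ = h2⁻¹ * (g * a * g⁻¹) * (g * h1) := by rw [e1]; group
      _ = _ := by rw [← e2]; group
  have := mul_mem (mul_mem m2 h) (inv_mem m1)
  simpa [mul_assoc] using this

theorem comp_invariant (H : Hyp d) {h x : G} (hh : h ∈ cH d) (hx : x ∈ comp d d) :
    h * x * h⁻¹ ∈ comp d d := by
  suffices h * d * h⁻¹ ∈ comp d d from
    comp_eq H mem_conjugatesOf_self this ▸ comp_conj h d hx
  induction hh using Subgroup.closure_induction with
  | mem a ha =>
    have h1 := comp_conj a a (comp_symm mem_conjugatesOf_self ha)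
    rw [mul_inv_cancel_right] at h1
    exact comp_trans H mem_conjugatesOf_self ha h1
  | one => simpa using self_comp d
  | mul a b _ _ iha ihb =>
    have h1 := comp_conj a d ihb
    rw [comp_eq H mem_conjugatesOf_self iha] at h1
    rw [show a * b * d * (a * b)⁻¹ = a * (b * d * b⁻¹) * a⁻¹ by group]
    exact h1
  | inv a _ iha =>
    have h1 := comp_symm (conj_mem_class a⁻¹ mem_conjugatesOf_self) (by
      have h2 := comp_conj a⁻¹ d iha
      rwa [show a⁻¹ * (a * d * a⁻¹) * a⁻¹⁻¹ = d by group] at h2)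
    exact h1

theorem cD_ttg (H : Hyp d) : IsThreeTranspositionGroup (cD d) := by
  refine ⟨⟨fun x hx => ?_, fun x hx y hy => ?_⟩, fun g x hx => comp_invariant H g.2 hx, ?_⟩
  · rw [← orderOf_injective (cH d).subtype (Subgroup.subtype_injective _) x]
    exact (H.at (comp_mem mem_conjugatesOf_self hx)).orderOf_eq
  · rcases comp_braid H mem_conjugatesOf_self hx hy with h | h
    · exact Or.inl (Subtype.ext h)
    · exact Or.inr (Subtype.ext h)
  · exact Subgroup.closure_closure_coe_preimage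

theorem cD_type (H : Hyp d) : IsOfTypeM22 ↥(cH d) (cD d) := by
  have := finite_fi22
  obtain ⟨v, c, K⟩ := exists_far H (mem_conjugatesOf_self (a := d))
  obtain ⟨X, -, hY⟩ := conf_chart H K
  have hcc : c ∈ comp d d := Or.inr (Or.inr ⟨v, K.hx, K.hc⟩)
  set dH : ↥(cH d) := ⟨d, mem_cH (self_comp d)⟩
  set cc : ↥(cH d) := ⟨c, mem_cH hcc⟩
  refine ⟨?_, dH, self_comp d, cc, hcc, fun h => K.far (h.map (cH d).subtype), ?_, ?_⟩
  · rw [eq_bot_iff]
    intro z hz
    rw [Subgroup.mem_center_iff] at hz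
    have hdz : Commute d (z : G) := congrArg Subtype.val (hz dH)
    obtain ⟨h, he⟩ := X.exists_inc hdz
    have hcen : h ∈ Subgroup.center ↥Hs := by
      refine Subgroup.mem_center_iff.2 fun k => X.inc_injective ?_
      rw [map_mul, map_mul, he]
      exact congrArg Subtype.val (hz ⟨_, cent_le H (self_comp d) (X.inc_commute k)⟩)
    rcases center_Hs_cases hcen with rfl | e
    · rw [map_one] at he
      exact Subgroup.mem_bot.2 (Subtype.ext he.symm)
    · refine absurd (Commute.symm ?_) K.far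
      rw [← X.inc_aH, show aH = h from Subtype.ext e.symm, he]
      exact congrArg Subtype.val (hz cc)
  · obtain ⟨_, ⟨e⟩, _⟩ := U6.nonsplit_Hs
    obtain ⟨f1⟩ := closure_congr (cH d).subtype X.inc (Subgroup.subtype_injective _) X.inc_injective
      (S := {y | y ∈ cD d ∧ y ≠ dH ∧ Commute dH y})
      (T := {t : ↥Hs | (t : Spor.Fi22) ∈ nbr D22 U6.a0}) (by
        ext y
        constructor
        · rintro ⟨w, ⟨hw, hne, hcm⟩, rfl⟩
          obtain ⟨t, ht, e⟩ := (H.nbr_iff mem_conjugatesOf_self X).1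
            ⟨comp_mem mem_conjugatesOf_self hw, fun e => hne (Subtype.ext e), hcm.map (cH d).subtype⟩
          exact ⟨nH t ht, ht, e⟩
        · rintro ⟨t, ht, rfl⟩
          have hn := (H.nbr_iff mem_conjugatesOf_self X).2 ⟨_, ht, rfl⟩
          exact ⟨⟨_, mem_cH (nbr_comp hn)⟩, ⟨nbr_comp hn,
            fun e => hn.2.1 (congrArg Subtype.val e), Subtype.ext hn.2.2.eq⟩, rfl⟩)
    obtain ⟨f2⟩ := closure_in_Hs (T := nbr D22 U6.a0) fun t ht => U6.mem_Hs_of_commute ht.2.2
    obtain ⟨f, -⟩ := quotCenterCongr ((f1.trans f2).trans (MulEquiv.subgroupCongr closure_nbr_a0))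
    exact ⟨F4, inferInstance, inferInstance, F4.card_eq, ⟨f.trans e⟩⟩
  · obtain ⟨e⟩ := lgroup_quot
    obtain ⟨g⟩ := rgroup_quot
    obtain ⟨f1⟩ := closure_congr (cH d).subtype X.inc (Subgroup.subtype_injective _) X.inc_injective
      (S := {y | y ∈ cD d ∧ y ≠ dH ∧ Commute dH y} ∩ {y | y ∈ cD d ∧ y ≠ cc ∧ Commute cc y})
      (T := {t : ↥Hs | (t : Spor.Fi22) ∈ Y22}) (by
        ext y
        constructor
        · rintro ⟨w, ⟨⟨hw, hne, hcm⟩, -, -, hcm'⟩, rfl⟩
          obtain ⟨t, ht, e⟩ := (H.nbr_iff mem_conjugatesOf_self X).1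
            ⟨comp_mem mem_conjugatesOf_self hw, fun e => hne (Subtype.ext e), hcm.map (cH d).subtype⟩
          refine ⟨nH t ht, (hY t ht).1 ?_, e⟩
          rw [e]
          exact hcm'.map (cH d).subtype
        · rintro ⟨t, ht, rfl⟩
          have hn := (H.nbr_iff mem_conjugatesOf_self X).2 ⟨_, ht.1, rfl⟩
          refine ⟨⟨_, mem_cH (nbr_comp hn)⟩, ⟨⟨nbr_comp hn,
            fun e => hn.2.1 (congrArg Subtype.val e), Subtype.ext hn.2.2.eq⟩, nbr_comp hn, ?_,
            Subtype.ext ((hY _ ht.1).2 ht).eq⟩, rfl⟩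
          intro e
          have e' : X.inc (nH _ ht.1) = c := congrArg Subtype.val e
          exact K.far (e' ▸ hn.2.2))
    obtain ⟨f2⟩ := closure_in_Hs (T := Y22) fun t ht => U6.mem_Hs_of_commute ht.1.2.2
    obtain ⟨f, -⟩ := quotCenterCongr (f1.trans f2)
    exact ⟨1, one_ne_zero, q6, q6_nondeg, q6_det, ⟨(f.trans e).trans g.symm⟩⟩

theorem cD_primitive (H : Hyp d) : IsPrimitiveUnderConj (cD d) :=
  m22_primitive (cD_ttg H) (cD_type H)

end CfsgLib.FischerRecog58
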