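import Cfsg.Agent.FischerRecog58.CompBasic
import Cfsg.Agent.ThreeTransp.M22PairMain25
import Cfsg.Agent.ThreeTransp.M22Inv53
import Cfsg.Agent.ZStar.Theorem

/-!
The centralizer of a product of two commuting transpositions lies in the subgroup generated by
the component.
-/

set_option autoImplicit false
set_option maxRecDepth 100000

namespace CfsgLib.FischerRecog58

open Cfsg CfsgLib.ThreeTransp CfsgLib.CosetEnum CfsgLib.CosetEnum.Fi22

universe u

variable {G : Type u} [Group G]

theorem fix_of_sq_of_odd {x y : G} (ho : Odd (orderOf x)) (h : Commute (x * x) y) : Commute x y := by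
  obtain ⟨k, hk⟩ := ho
  have e : x = (x * x) ^ (k + 1) := by
    rw [← pow_two, ← pow_mul, show 2 * (k + 1) = (2 * k + 1) + 1 by omega, pow_succ, ← hk,
      pow_orderOf_eq_one, one_mul]
  exact e ▸ h.pow_left _

theorem inverts_fixfree [Finite G] (W : Subgroup G) (u : G) (hu : u * u = 1)
    (hn : ∀ w ∈ W, u * w * u⁻¹ ∈ W) (hfree : ∀ w ∈ W, u * w * u⁻¹ = w → w = 1) {w : G}
    (hw : w ∈ W) : u * w * u⁻¹ = w⁻¹ := by
  let f : ↥W → ↥W := fun v => ⟨(v : G)⁻¹ * (u * v * u⁻¹), mul_mem (inv_mem v.2) (hn _ v.2)⟩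
  have hf : Function.Injective f := by
    intro p q h
    have h' : (p : G)⁻¹ * (u * p * u⁻¹) = (q : G)⁻¹ * (u * q * u⁻¹) := congrArg Subtype.val h
    refine Subtype.ext (mul_inv_eq_one.1 (hfree _ (mul_mem q.2 (inv_mem p.2)) ?_)).symm
    calc u * ((q : G) * (p : G)⁻¹) * u⁻¹ = (u * q * u⁻¹) * (u * p * u⁻¹)⁻¹ := by group
      _ = (q : G) * ((q : G)⁻¹ * (u * q * u⁻¹)) * (u * p * u⁻¹)⁻¹ := by group
      _ = (q : G) * ((p : G)⁻¹ * (u * p * u⁻¹)) * (u * p * u⁻¹)⁻¹ := by rw [h']
      _ = _ := by group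
  obtain ⟨v, hv⟩ := (Finite.injective_iff_surjective.1 hf) ⟨w, hw⟩
  have e : (v : G)⁻¹ * (u * v * u⁻¹) = w := congrArg Subtype.val hv
  rw [← e, inv_eq_of_mul_eq_one_right hu]
  calc u * ((v : G)⁻¹ * (u * v * u)) * u = u * (v : G)⁻¹ * u * v * (u * u) := by group
    _ = _ := by rw [hu, mul_one, mul_inv_rev, inv_inv, mul_inv_rev, mul_inv_rev,
                  inv_eq_of_mul_eq_one_right hu]; group

variable [Finite G] {d : G}

theorem comp_sq (H : Hyp d) {x : G} (hx : x ∈ comp d d) : x * x = 1 := by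
  obtain ⟨X⟩ := (H.at (comp_mem mem_conjugatesOf_self hx)).chart
  exact X.mul_self

/-- The members inside the subgroup are those of the component. -/
theorem class_inter (H : Hyp d) {x : G} (hx : x ∈ conjugatesOf d) (hxH : x ∈ cH d) :
    x ∈ comp d d := by
  have hsq : x * x = 1 := by obtain ⟨X⟩ := (H.at hx).chart; exact X.mul_self
  obtain ⟨m, hm, hc⟩ := m22_inv_commute_member (cD_ttg H) (cD_primitive H) (cD_type H)
    (t := (⟨x, hxH⟩ : ↥(cH d))) (Subtype.ext hsq)
  by_cases e : x = (m : G)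
  · exact e ▸ hm
  · exact comp_closed H mem_conjugatesOf_self hm
      ⟨hx, e, (hc.map (cH d).subtype).symm⟩

theorem no_one_three (H : Hyp d) {r p q s : G} (hr : r ∈ comp d d) (hp : p ∈ comp d d)
    (hq : q ∈ comp d d) (hs : s ∈ comp d d) (hpq : Commute p q) (hps : Commute p s)
    (hqs : Commute q s) (npq : p ≠ q) (nps : p ≠ s) (nqs : q ≠ s) (he : r = p * q * s) : False := by
  let up : ∀ {x : G}, x ∈ comp d d → ↥(cH d) := fun {x} h => ⟨x, mem_cH h⟩
  have h1 : IsFact (cD d) 1 (up hr) [up hr] := by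
    refine ⟨by simp, rfl, ?_, ?_, by simp⟩
    · intro x hx; rw [List.mem_singleton] at hx; subst hx; exact hr
    · intro x hx y hy; rw [List.mem_singleton] at hx hy; subst hx hy; exact Commute.refl _
  have h3 : IsFact (cD d) 3 (up hr) [up hp, up hq, up hs] := by
    refine ⟨?_, rfl, ?_, ?_, ?_⟩
    · simp [up, npq, nps, nqs]
    · simp only [List.forall_mem_cons, List.not_mem_nil, IsEmpty.forall_iff, implies_true, and_true]
      exact ⟨hp, hq, hs⟩
    · simp only [List.forall_mem_cons, List.not_mem_nil, IsEmpty.forall_iff, implies_true, and_true,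
        Commute.refl, true_and]
      exact ⟨⟨Subtype.ext hpq.eq, Subtype.ext hps.eq⟩, ⟨Subtype.ext hpq.eq.symm, Subtype.ext hqs.eq⟩,
        Subtype.ext hps.eq.symm, Subtype.ext hqs.eq.symm⟩
    · simp only [List.prod_cons, List.prod_nil, mul_one]
      exact Subtype.ext (show p * (q * s) = r from (mul_assoc p q s).symm.trans he.symm)
  exact absurd (m22_fact_length (cD_ttg H) (cD_primitive H) (cD_type H) le_rfl (by norm_num)
    (by norm_num) le_rfl h1 h3) (by norm_num)

theorem pair_iso (H : Hyp d) {a b g : G} (ha : a ∈ comp d d) (hb : b ∈ nbr (conjugatesOf d) a)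
    (hg : Commute g (a * b)) (hc : Commute a (g * a * g⁻¹)) :
    g * a * g⁻¹ = a ∨ g * a * g⁻¹ = b := by
  by_contra hcon
  push Not at hcon
  obtain ⟨h1, h2⟩ := hcon
  set r := g * a * g⁻¹ with hr
  have haD := comp_mem mem_conjugatesOf_self ha
  have hbc := comp_closed H mem_conjugatesOf_self ha hb
  have hrn : r ∈ nbr (conjugatesOf d) a := ⟨conj_mem_class g haD, h1, hc⟩
  have hrc := comp_closed H mem_conjugatesOf_self ha hrn
  have hrt : Commute r (a * b) := by
    have h := ((Commute.refl a).mul_right hb.2.2).map (MulAut.conj g).toMonoidHom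
    change Commute r (g * (a * b) * g⁻¹) at h
    rwa [hg.eq, mul_inv_cancel_right] at h
  have hrb : Commute r b := by
    have h := hc.symm.mul_right hrt
    rwa [← mul_assoc, comp_sq H ha, one_mul] at h
  have e : g * b * g⁻¹ = r * (a * b) := by
    have h : r * (g * b * g⁻¹) = a * b := by
      calc r * (g * b * g⁻¹) = g * (a * b) * g⁻¹ := by rw [hr]; group
        _ = a * b := by rw [hg.eq, mul_inv_cancel_right]
    calc g * b * g⁻¹ = r * r * (g * b * g⁻¹) := by rw [comp_sq H hrc, one_mul]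
      _ = r * (r * (g * b * g⁻¹)) := mul_assoc _ _ _
      _ = _ := by rw [h]
  have hr'c : g * b * g⁻¹ ∈ comp d d := by
    by_cases h : g * b * g⁻¹ = a
    · rw [h]; exact ha
    · refine comp_closed H mem_conjugatesOf_self ha ⟨conj_mem_class g hb.1, h, ?_⟩
      rw [e]
      exact hc.mul_right ((Commute.refl a).mul_right hb.2.2)
  exact no_one_three H hr'c hrc ha hbc hc.symm hrb hb.2.2 h1 h2 hb.2.1.symm
    (e.trans (mul_assoc _ _ _).symm)

theorem exists_triangle (H : Hyp d) {a b s : G} (ha : a ∈ conjugatesOf d)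
    (hb : b ∈ nbr (conjugatesOf d) a) (hs : s ∈ nbr (conjugatesOf d) a) (hbs : ¬ Commute b s) :
    ∃ w, w ∈ nbr (conjugatesOf d) a ∧ w ∈ nbr (conjugatesOf d) b ∧
      w ∈ nbr (conjugatesOf d) s := by
  obtain ⟨X, hX, hS⟩ := sec_model H (a := b) (x := a) (c := s) ⟨hb.1, nbr_symm ha hb, hs, hbs⟩
  obtain ⟨hi, hci⟩ := (hS _).2 (mem_secList_val (n := SData.n0) (show 0 < 45 by norm_num))
  set i := 4 * 0 + secVal SData.n0 0
  obtain ⟨h1, h2⟩ := rM_R hi
  have hw : X.inc (rH i) ∈ nbr (conjugatesOf d) b :=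
    (H.nbr_iff hb.1 X).2 ⟨_, h1, congrArg X.inc (Subtype.ext rfl)⟩
  refine ⟨_, ⟨hw.1, fun e => h2.2.1 (congrArg Subtype.val (X.inc_injective (e.trans hX.symm))), ?_⟩,
    hw, hw.1, fun e => hbs (e ▸ hw.2.2), hci⟩
  rw [← hX, X.commute_inc]
  exact h2.2.2

theorem cent_pair_eq {t a b : G} (haa : a * a = 1) (e : t = a * b) : a * t = b := by
  rw [e, ← mul_assoc, haa, one_mul]

theorem pair_data (H : Hyp d) {a b : G} (ha : a ∈ comp d d) (hb : b ∈ nbr (conjugatesOf d) a) :
    (∀ g, Commute g (a * b) → (∀ x : G, Odd (orderOf x) → a * x * a⁻¹ = x⁻¹ → b * x * b⁻¹ = x⁻¹ →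
      x = 1) → g ∈ cH d) ∧
    ∀ x : G, Odd (orderOf x) → a * x * a⁻¹ = x⁻¹ → b * x * b⁻¹ = x⁻¹ →
      ∀ r ∈ comp d d, Commute r (a * b) → r * x * r⁻¹ = x⁻¹ := by
  classical
  haveI : Fact (Nat.Prime 2) := ⟨Nat.prime_two⟩
  set t := a * b with ht
  have hbc := comp_closed H mem_conjugatesOf_self ha hb
  have haa := comp_sq H ha
  have hbb := comp_sq H hbc
  have hat : Commute a t := (Commute.refl a).mul_right hb.2.2
  have hbt : Commute b t := hb.2.2.symm.mul_right (Commute.refl b)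
  have htt : t * t = 1 := by
    calc t * t = a * (b * a) * b := by rw [ht]; group
      _ = 1 := by rw [← hb.2.2.eq, ← mul_assoc, haa, one_mul, hbb]
  have ht1 : t ≠ 1 := fun e => hb.2.1 (by
    rw [ht, mul_eq_one_iff_inv_eq, inv_eq_of_mul_eq_one_right haa] at e; exact e.symm)
  set C := Subgroup.centralizer ({t} : Set G) with hC
  have mC : ∀ {x : G}, Commute x t → x ∈ C := fun h => mem_cent_iff.2 h.symm
  set tC : ↥C := ⟨t, mC (Commute.refl t)⟩ with htC
  set Z := Subgroup.zpowers tC with hZdef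
  haveI hZn : Z.Normal := ⟨fun z hz g => by
    obtain ⟨n, rfl⟩ := hz
    have hc : Commute g tC := Subtype.ext (mem_cent_iff.1 g.2).eq.symm
    show g * tC ^ n * g⁻¹ ∈ Z
    rw [(hc.zpow_right n).eq, mul_inv_cancel_right]
    exact Subgroup.zpow_mem_zpowers _ n⟩
  set q := QuotientGroup.mk' Z with hq
  have hker : ∀ {x : ↥C}, q x = 1 → (x : G) = 1 ∨ (x : G) = t := by
    intro x hx
    obtain ⟨n, rfl⟩ := (QuotientGroup.eq_one_iff x).1 hx
    have h2 : tC ^ (2 : ℤ) = 1 := by rw [zpow_two]; exact Subtype.ext htt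
    rcases Int.even_or_odd' n with ⟨k, rfl | rfl⟩
    · exact Or.inl (by simp only [zpow_mul, h2, one_zpow]; rfl)
    · exact Or.inr (by simp only [zpow_add, zpow_mul, h2, one_zpow, one_mul, zpow_one]; rfl)
  have hqt : q tC = 1 := (QuotientGroup.eq_one_iff _).2 (Subgroup.mem_zpowers _)
  set aC : ↥C := ⟨a, mC hat⟩ with haC
  -- the image of the member is isolated
  have hqa : orderOf (q aC) = 2 := by
    refine orderOf_eq_prime ?_ fun e => ?_
    · rw [pow_two, ← map_mul, show aC * aC = 1 from Subtype.ext haa, map_one]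
    · rcases hker e with h | h
      · have h' : a = 1 := h
        obtain ⟨X⟩ := (H.at (comp_mem mem_conjugatesOf_self ha)).chart
        exact X.d_ne_one h'
      · have h' : a = a * b := h
        exact ((H.at hb.1).chart.some.d_ne_one) (mul_eq_left.1 h'.symm)
  have hiso : ∀ g, Commute (q aC) (g * q aC * g⁻¹) → g * q aC * g⁻¹ = q aC := by
    intro g hg
    obtain ⟨g, rfl⟩ := QuotientGroup.mk'_surjective Z g
    set r := (g : G) * a * (g : G)⁻¹ with hr
    have hgt : Commute (g : G) t := (mem_cent_iff.1 g.2).symm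
    have hrt : Commute r t := (hgt.mul_left hat).mul_left hgt.inv_left
    have hrr : r * r = 1 := by
      rw [hr, show (g : G) * a * (g : G)⁻¹ * ((g : G) * a * (g : G)⁻¹) = g * (a * a) * (g : G)⁻¹ by
        group, haa, mul_one, mul_inv_cancel]
    have h1 : q ((aC * (g * aC * g⁻¹)) * (aC * (g * aC * g⁻¹))) = 1 := by
      simp only [map_mul, map_inv]
      rw [← pow_two, hg.mul_pow, pow_two, pow_two]
      have e1 : q aC * q aC = 1 := by rw [← pow_two, ← hqa, pow_orderOf_eq_one]
      rw [e1, one_mul, show q g * q aC * (q g)⁻¹ * (q g * q aC * (q g)⁻¹) =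
        q g * (q aC * q aC) * (q g)⁻¹ by group, e1, mul_one, mul_inv_cancel]
    have hcase : r = a ∨ r = b := by
      rcases hker h1 with h | h
      · refine pair_iso H ha hb hgt ?_
        have h' : (a * r) * (a * r) = 1 := h
        have h'' := eq_inv_of_mul_eq_one_left h'
        rw [mul_inv_rev, inv_eq_of_mul_eq_one_right hrr, inv_eq_of_mul_eq_one_right haa] at h''
        exact h''
      · exfalso
        have h' : (a * r) * (a * r) = t := h
        have e : r * a * r⁻¹ = b := by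
          rw [inv_eq_of_mul_eq_one_right hrr, ← cent_pair_eq haa ht, ← h',
            show a * (a * r * (a * r)) = a * a * (r * a * r) by group, haa, one_mul]
        have hrc : r ∈ comp d d := class_inter H (conj_mem_class _ (comp_mem mem_conjugatesOf_self ha))
          (comp_move H ha (e ▸ hbc))
        rcases comp_braid H mem_conjugatesOf_self ha hrc with h2 | h3
        · exact ht1 (by rw [← h', ← pow_two, h2])
        · refine ht1 ?_
          calc t = t * (t * t) := by rw [htt, mul_one]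
            _ = (a * r) ^ 3 * (a * r) ^ 3 := by
              rw [← h']; simp only [pow_succ, pow_zero, one_mul, mul_assoc]
            _ = 1 := by rw [h3, one_mul]
    rw [← map_inv, ← map_mul, ← map_mul]
    rcases hcase with h | h
    · exact congrArg q (Subtype.ext h)
    · rw [show g * aC * g⁻¹ = aC * tC from Subtype.ext (h.trans (cent_pair_eq haa ht).symm),
        map_mul, hqt, mul_one]
  set W := pPrimeCore 2 (↥C ⧸ Z) with hW
  haveI : W.Normal := pPrimeCore_normal 2 _
  have hZs : ∀ g, g * q aC * g⁻¹ * (q aC)⁻¹ ∈ W := ZStar.inZStar_of_isolated hqa hiso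
  have hodd : ∀ w ∈ W, Odd (orderOf w) := fun w hw => by
    have h : ¬ 2 ∣ Nat.card ↥W := Constrained.pPrimeCore_not_dvd
    rw [Nat.odd_iff, Nat.two_dvd_ne_zero.mp ?_]
    intro h2
    exact h (h2.trans (Subgroup.orderOf_dvd_natCard W hw))
  -- elements of odd order inside
  have hzero : ∀ x : ↥C, (x : G) ∈ cH d → Odd (orderOf (x : G)) → q x ∈ W → (x : G) = 1 := by
    intro x hxH hxo hxW
    have hxt : Commute (x : G) t := (mem_cent_iff.1 x.2).symm
    set xH : ↥(cH d) := ⟨x, hxH⟩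
    set aH' : ↥(cH d) := ⟨a, mem_cH ha⟩
    set bH' : ↥(cH d) := ⟨b, mem_cH hbc⟩
    have hG := cD_ttg H
    have hnt := m22_noTwins hG (cD_type H)
    have hba : bH' ∈ nbr (cD d) aH' :=
      ⟨hbc, fun e => hb.2.1 (congrArg Subtype.val e), Subtype.ext hb.2.2.eq⟩
    have hfix : ∀ p ∈ ({aH', bH'} : Set ↥(cH d)), Commute xH p := by
      have key : ∀ y : ↥(cH d), Commute (y : G) t →
          (y * aH' * y⁻¹ = aH' ∧ y * bH' * y⁻¹ = bH') ∨
          (y * aH' * y⁻¹ = bH' ∧ y * bH' * y⁻¹ = aH') := by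
        intro y hy
        have hne : y * aH' * y⁻¹ ≠ y * bH' * y⁻¹ := fun e =>
          hba.2.1 (mul_left_cancel (mul_right_cancel e)).symm
        have he : aH' * bH' = (y * aH' * y⁻¹) * (y * bH' * y⁻¹) := by
          calc aH' * bH' = y * (aH' * bH') * y⁻¹ := Subtype.ext (by
                show t = (y : G) * t * (y : G)⁻¹
                rw [hy.eq, mul_inv_cancel_right])
            _ = _ := by group
        have hm := hG.2.1 y
        have hcm : Commute (y * aH' * y⁻¹) (y * bH' * y⁻¹) :=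
          hba.2.2.map (MulAut.conj y).toMonoidHom
        rcases pair_mem hG.1 hnt ha hbc (hm _ ha) (hm _ hbc) hba.2.2 hba.2.1.symm hcm hne he
          with h | h <;>
        rcases pair_mem hG.1 hnt ha hbc (hm _ hbc) (hm _ ha) hba.2.2 hba.2.1.symm hcm.symm hne.symm
          (he.trans hcm.eq) with h' | h'
        · exact absurd (h.trans h'.symm) hne
        · exact Or.inl ⟨h, h'⟩
        · exact Or.inr ⟨h, h'⟩
        · exact absurd (h.trans h'.symm) hne
      have hx2 : Commute (xH * xH) aH' ∧ Commute (xH * xH) bH' := by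
        have e : ∀ p, xH * xH * p * (xH * xH)⁻¹ = xH * (xH * p * xH⁻¹) * xH⁻¹ := fun p => by group
        rcases key xH hxt with ⟨h1, h2⟩ | ⟨h1, h2⟩ <;>
          exact ⟨mul_inv_eq_iff_eq_mul.1 (by simp only [e, h1, h2]),
            mul_inv_eq_iff_eq_mul.1 (by simp only [e, h1, h2])⟩
      intro p hp
      have hxo' : Odd (orderOf xH) := by
        rw [← orderOf_injective (cH d).subtype (Subgroup.subtype_injective _) xH]; exact hxo
      rcases hp with rfl | rfl
      · exact fix_of_sq_of_odd hxo' hx2.1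
      · exact fix_of_sq_of_odd hxo' hx2.2
    obtain ⟨E, hE⟩ := Pair25.m22_pair_struct hG (cD_primitive H) (cD_type H) (a := aH') ha hba
      (Subgroup.centralizer ({aH', bH'} : Set ↥(cH d)))
      (Subgroup.centralizer ({aH' * bH'} : Set ↥(cH d))) rfl rfl
    have hxK : xH ∈ Subgroup.centralizer ({aH', bH'} : Set ↥(cH d)) :=
      Subgroup.mem_centralizer_iff.2 fun p hp => (hfix p hp).eq.symm
    have hxC := hE.le hxK
    have hxE : ∀ e ∈ E, Commute xH e := by
      intro e he
      have hec := hE.le (hE.hEK he)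
      have hcE : xH * e * xH⁻¹ * e⁻¹ ∈ E := by
        refine mul_mem ?_ (inv_mem he)
        exact Subgroup.mem_subgroupOf.1 (hE.normal.conj_mem ⟨e, hec⟩ he ⟨xH, hxC⟩)
      have het : Commute (e : G) t := by
        have h := Subgroup.mem_centralizer_singleton_iff.1 hec
        exact congrArg Subtype.val h
      set eC : ↥C := ⟨e, mC het⟩
      have hcW : q (x * eC * x⁻¹ * eC⁻¹) ∈ W := by
        have h1 : q eC * (q x)⁻¹ * (q eC)⁻¹ ∈ W := Subgroup.Normal.conj_mem inferInstance _ (inv_mem hxW) _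
        have h2 := mul_mem hxW h1
        simpa [map_mul, map_inv, mul_assoc] using h2
      have hc2 : (x * eC * x⁻¹ * eC⁻¹) ^ (2 ^ 10) = 1 := by
        refine Subtype.ext ?_
        have h := congrArg (fun z : ↥E => ((z : ↥(cH d)) : G))
          (hE.card ▸ pow_card_eq_one' (x := (⟨_, hcE⟩ : ↥E)))
        simpa using h
      have h0 : q (x * eC * x⁻¹ * eC⁻¹) = 1 := by
        rw [← orderOf_eq_one_iff]
        have h1 : orderOf (q (x * eC * x⁻¹ * eC⁻¹)) ∣ 2 ^ 10 :=
          orderOf_dvd_of_pow_eq_one (by rw [← map_pow, hc2, map_one])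
        obtain ⟨i, -, hi⟩ := (Nat.dvd_prime_pow Nat.prime_two).1 h1
        have h2 := hodd _ hcW
        rw [hi] at h2 ⊢
        rcases Nat.eq_zero_or_pos i with rfl | hi0
        · rfl
        · exact absurd h2 (Nat.not_odd_iff_even.2 (Nat.even_pow.2 ⟨even_two, hi0.ne'⟩))
      have hcom : Commute (x : G) (e : G) := by
        rcases hker h0 with h | h
        · have h' : (x : G) * e * (x : G)⁻¹ * (e : G)⁻¹ = 1 := h
          exact mul_inv_eq_iff_eq_mul.1 (mul_inv_eq_one.1 h')
        · have h' : (x : G) * e * (x : G)⁻¹ * (e : G)⁻¹ = t := h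
          have h'' : (x : G) * e * (x : G)⁻¹ = t * e := mul_inv_eq_iff_eq_mul.1 h'
          refine fix_of_sq_of_odd hxo (mul_inv_eq_iff_eq_mul.1 ?_)
          calc (x : G) * x * e * ((x : G) * x)⁻¹ = (x : G) * ((x : G) * e * (x : G)⁻¹) * (x : G)⁻¹ := by
                group
            _ = ((x : G) * t) * e * (x : G)⁻¹ := by rw [h'']; group
            _ = t * ((x : G) * e * (x : G)⁻¹) := by rw [hxt.eq]; group
            _ = e := by rw [h'', ← mul_assoc, htt, one_mul]
      exact Subtype.ext hcom.eq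
    have hxE' : xH ∈ E :=
      hE.self ⟨hxC, Subgroup.mem_centralizer_iff.2 fun e he => (hxE e he).eq.symm⟩
    have hord : orderOf (x : G) ∣ 2 ^ 10 := by
      have h := congrArg (fun z : ↥E => ((z : ↥(cH d)) : G))
        (hE.card ▸ pow_card_eq_one' (x := (⟨_, hxE'⟩ : ↥E)))
      exact orderOf_dvd_of_pow_eq_one (by simpa [xH] using h)
    rw [← orderOf_eq_one_iff]
    obtain ⟨i, -, hi⟩ := (Nat.dvd_prime_pow Nat.prime_two).1 hord
    rw [hi] at hxo ⊢
    rcases Nat.eq_zero_or_pos i with rfl | hi0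
    · rfl
    · exact absurd hxo (Nat.not_odd_iff_even.2 (Nat.even_pow.2 ⟨even_two, hi0.ne'⟩))
  have hlift : ∀ w ∈ W, ∃ x : ↥C, Odd (orderOf (x : G)) ∧ q x = w := by
    intro w hw
    obtain ⟨x, rfl⟩ := QuotientGroup.mk'_surjective Z w
    have hm := hodd _ hw
    set m := orderOf (q x)
    have h1 : q (x ^ m) = 1 := by rw [map_pow, pow_orderOf_eq_one]
    rcases hker h1 with h | h
    · exact ⟨x, hm.of_dvd_nat (orderOf_dvd_of_pow_eq_one (by simpa using h)), rfl⟩
    · refine ⟨x * tC, hm.of_dvd_nat (orderOf_dvd_of_pow_eq_one ?_), by rw [map_mul, hqt, mul_one]⟩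
      have hxt : Commute (x : G) t := (mem_cent_iff.1 x.2).symm
      obtain ⟨k, hk⟩ := hm
      rw [Subgroup.coe_mul, show (tC : G) = t from rfl, hxt.mul_pow,
        show (x : G) ^ m = t by simpa using h, hk, pow_succ, pow_mul, pow_two, htt, one_pow, one_mul, htt]
  have hinv : ∀ r ∈ comp d d, Commute r t → ∀ x : ↥C, Odd (orderOf (x : G)) → q x ∈ W →
      r * (x : G) * r⁻¹ = (x : G)⁻¹ := by
    intro r hr hrt
    set rC : ↥C := ⟨r, mC hrt⟩
    have hfree : ∀ w ∈ W, q rC * w * (q rC)⁻¹ = w → w = 1 := by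
      intro w hw hfix
      obtain ⟨x, hxo, rfl⟩ := hlift w hw
      have h1 : q (rC * x * rC⁻¹ * x⁻¹) = 1 := by
        simp only [map_mul, map_inv]; rw [hfix, mul_inv_cancel]
      have hx : Commute r (x : G) := by
        rcases hker h1 with h | h
        · have h' : r * (x : G) * r⁻¹ * (x : G)⁻¹ = 1 := h
          exact mul_inv_eq_iff_eq_mul.1 (mul_inv_eq_one.1 h')
        · exfalso
          have h' : r * (x : G) * r⁻¹ * (x : G)⁻¹ = t := h
          have h'' : r * (x : G) * r⁻¹ = t * x := mul_inv_eq_iff_eq_mul.1 h'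
          have hxt : Commute t (x : G) := mem_cent_iff.1 x.2
          have := congrArg (· ^ orderOf (x : G)) h''
          simp only [conj_pow, pow_orderOf_eq_one, mul_one, mul_inv_cancel, hxt.mul_pow] at this
          obtain ⟨k, hk⟩ := hxo
          rw [hk, pow_succ, pow_mul, pow_two, htt, one_pow, one_mul] at this
          exact ht1 this.symm
      rw [show x = (1 : ↥C) from Subtype.ext (hzero x (cent_le H hr hx) hxo hw), map_one]
    intro x hxo hxW
    have hrr : q rC * q rC = 1 := by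
      rw [← map_mul, show rC * rC = 1 from Subtype.ext (comp_sq H hr), map_one]
    have h := inverts_fixfree W (q rC) hrr
      (fun w hw => Subgroup.Normal.conj_mem inferInstance _ hw _) hfree hxW
    have h1 : q (rC * x * rC⁻¹ * x) = 1 := by
      simp only [map_mul, map_inv]; rw [h, inv_mul_cancel]
    rcases hker h1 with h2 | h2
    · exact eq_inv_of_mul_eq_one_left (show r * (x : G) * r⁻¹ * x = 1 from h2)
    · exfalso
      have h' : r * (x : G) * r⁻¹ * x = t := h2
      have h'' : r * (x : G) * r⁻¹ = t * (x : G)⁻¹ := eq_mul_inv_iff_mul_eq.2 h'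
      have hxt : Commute t (x : G)⁻¹ := (mem_cent_iff.1 x.2).inv_right
      have := congrArg (· ^ orderOf (x : G)) h''
      simp only [conj_pow, pow_orderOf_eq_one, mul_one, mul_inv_cancel, hxt.mul_pow, inv_pow,
        inv_one] at this
      obtain ⟨k, hk⟩ := hxo
      rw [hk, pow_succ, pow_mul, pow_two, htt, one_pow, one_mul] at this
      exact ht1 this.symm
  refine ⟨fun g hg htriv => ?_, fun x hxo hxa hxb r hr hrt => ?_⟩
  · set gC : ↥C := ⟨g, mC hg⟩
    obtain ⟨x, hxo, hx⟩ := hlift _ (hZs (q gC))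
    have hxW : q x ∈ W := hx ▸ hZs (q gC)
    have hx1 := htriv x hxo (hinv a ha hat x hxo hxW) (hinv b hbc hbt x hxo hxW)
    rw [show x = (1 : ↥C) from Subtype.ext hx1, map_one] at hx
    have h1 : q (gC * aC * gC⁻¹ * aC⁻¹) = 1 := by simp only [map_mul, map_inv]; exact hx.symm
    rcases hker h1 with h | h
    · have h' : g * a * g⁻¹ * a⁻¹ = 1 := h
      exact comp_move H ha (by rw [mul_inv_eq_one.1 h']; exact ha)
    · have h' : g * a * g⁻¹ * a⁻¹ = t := h
      refine comp_move H ha ?_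
      rw [mul_inv_eq_iff_eq_mul.1 h', ← hat.eq, cent_pair_eq haa ht]
      exact hbc
  · have hab : a * x * a⁻¹ = b * x * b⁻¹ := hxa.trans hxb.symm
    have hxt : Commute x t := by
      refine Commute.symm (mul_inv_eq_iff_eq_mul.1 ?_)
      calc a * b * x * (a * b)⁻¹ = a * (b * x * b⁻¹) * a⁻¹ := by group
        _ = (a * a) * x * (a * a)⁻¹ := by rw [← hab]; group
        _ = x := by rw [haa]; group
    set xC : ↥C := ⟨x, mC hxt⟩
    have hx2W : q (xC * xC) ∈ W := by
      have h := hZs (q xC)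
      rw [← map_inv, ← map_mul, ← map_mul, ← map_inv, ← map_mul] at h
      refine (show xC * aC * xC⁻¹ * aC⁻¹ = xC * xC from Subtype.ext ?_) ▸ h
      show x * a * x⁻¹ * a⁻¹ = x * x
      calc x * a * x⁻¹ * a⁻¹ = x * (a * x * a⁻¹)⁻¹ := by group
        _ = x * x := by rw [hxa, inv_inv]
    obtain ⟨k, hk⟩ := hxo
    have hx2o : Odd (orderOf ((xC * xC : ↥C) : G)) := by
      refine (show Odd (2 * k + 1) from ⟨k, rfl⟩).of_dvd_nat (orderOf_dvd_of_pow_eq_one ?_)
      rw [Subgroup.coe_mul, (Commute.refl _).mul_pow, ← hk, pow_orderOf_eq_one, one_mul]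
    have h := hinv r hr hrt _ hx2o hx2W
    have h' : r * (x * x) * r⁻¹ = (x * x)⁻¹ := h
    have e : x = (x * x) ^ (k + 1) := by
      rw [← pow_two, ← pow_mul, show 2 * (k + 1) = (2 * k + 1) + 1 by omega, pow_succ, ← hk,
        pow_orderOf_eq_one, one_mul]
    calc r * x * r⁻¹ = r * (x * x) ^ (k + 1) * r⁻¹ := by rw [← e]
      _ = ((x * x) ^ (k + 1))⁻¹ := by rw [← conj_pow, h', inv_pow]
      _ = x⁻¹ := by rw [← e]

theorem no_inverted (H : Hyp d) {a b x : G} (ha : a ∈ comp d d)
    (hb : b ∈ nbr (conjugatesOf d) a) (hxo : Odd (orderOf x)) (hxa : a * x * a⁻¹ = x⁻¹)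
    (hxb : b * x * b⁻¹ = x⁻¹) : x = 1 := by
  let P : G → Prop := fun r => r * x * r⁻¹ = x⁻¹
  have hstep : ∀ {a b : G}, a ∈ comp d d → b ∈ nbr (conjugatesOf d) a → P a → P b →
      ∀ s ∈ nbr (conjugatesOf d) a, P s := by
    intro a b ha hb pa pb s hs
    have haD := comp_mem mem_conjugatesOf_self ha
    have htri : ∀ {b s : G}, b ∈ nbr (conjugatesOf d) a → P b → s ∈ nbr (conjugatesOf d) a →
        Commute s b → P s := fun {b s} hb pb hs hsb =>
      (pair_data H ha hb).2 x hxo pa pb s (comp_closed H mem_conjugatesOf_self ha hs)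
        (hs.2.2.symm.mul_right hsb)
    by_cases hsb : Commute b s
    · exact htri hb pb hs hsb.symm
    · obtain ⟨w, hwa, hwb, hws⟩ := exists_triangle H haD hb hs hsb
      exact htri hwa (htri hb pb hwa hwb.2.2.symm) hs hws.2.2
  have hall : ∀ r ∈ comp d d, P r := by
    intro r hr
    rw [← comp_eq H mem_conjugatesOf_self ha] at hr
    have h1 := hstep ha hb hxa hxb
    rcases hr with rfl | hr | ⟨v, hv, hr⟩
    · exact hxa
    · exact h1 r hr
    · exact hstep (comp_closed H mem_conjugatesOf_self ha hv)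
        (nbr_symm (comp_mem mem_conjugatesOf_self ha) hv) (h1 v hv) hxa r hr
  have hsign : ∀ h ∈ cH d, h * x * h⁻¹ = x ∨ h * x * h⁻¹ = x⁻¹ := by
    intro h hh
    induction hh using Subgroup.closure_induction with
    | mem y hy => exact Or.inr (hall y hy)
    | one => exact Or.inl (by group)
    | mul y z _ _ iy iz =>
      have e : y * z * x * (y * z)⁻¹ = y * (z * x * z⁻¹) * y⁻¹ := by group
      rcases iz with hz | hz <;> rw [e, hz]
      · exact iy
      · rw [← conj_inv]
        rcases iy with hy | hy <;> rw [hy]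
        · exact Or.inr rfl
        · exact Or.inl (inv_inv x)
    | inv y _ iy =>
      rcases iy with hy | hy
      · refine Or.inl ?_
        calc y⁻¹ * x * y⁻¹⁻¹ = y⁻¹ * (y * x * y⁻¹) * y := by rw [hy]; group
          _ = x := by group
      · refine Or.inr ?_
        calc y⁻¹ * x * y⁻¹⁻¹ = (y⁻¹ * (y * x * y⁻¹) * y⁻¹⁻¹)⁻¹ := by rw [hy]; group
          _ = x⁻¹ := by group
  set K := (Subgroup.centralizer ({x} : Set G)).comap (cH d).subtype
  have hperf := m22_perfect (cD_ttg H) (cD_primitive H) (cD_type H)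
  have hle : commutator ↥(cH d) ≤ K := by
    rw [commutator_def, Subgroup.commutator_le]
    intro p _ q _
    refine mem_cent_iff.2 (Commute.symm (mul_inv_eq_iff_eq_mul.1 ?_))
    show ((p : G) * q * (p : G)⁻¹ * (q : G)⁻¹) * x * ((p : G) * q * (p : G)⁻¹ * (q : G)⁻¹)⁻¹ = x
    have hp' := hsign p p.2
    have hq' := hsign q q.2
    have hpi := hsign (p : G)⁻¹ (inv_mem p.2)
    have hqi := hsign (q : G)⁻¹ (inv_mem q.2)
    have hcancel : ∀ {y : G}, y⁻¹ * (y * x * y⁻¹) * y⁻¹⁻¹ = x := by intro y; group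
    rw [show ((p : G) * q * (p : G)⁻¹ * (q : G)⁻¹) * x * ((p : G) * q * (p : G)⁻¹ * (q : G)⁻¹)⁻¹ =
      (p : G) * ((q : G) * ((p : G)⁻¹ * ((q : G)⁻¹ * x * (q : G)⁻¹⁻¹) * (p : G)⁻¹⁻¹) * (q : G)⁻¹) *
        (p : G)⁻¹ by group]
    have hA : ∀ {y : G}, y * x * y⁻¹ = x → y⁻¹ * x * y⁻¹⁻¹ = x := fun {y} h => by
      nth_rewrite 1 [← h]; group
    have hB : ∀ {y : G}, y * x * y⁻¹ = x⁻¹ → y⁻¹ * x * y⁻¹⁻¹ = x⁻¹ := fun {y} h => by
      calc y⁻¹ * x * y⁻¹⁻¹ = (y⁻¹ * (y * x * y⁻¹) * y⁻¹⁻¹)⁻¹ := by rw [h]; group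
        _ = x⁻¹ := by group
    rcases hp' with hp1 | hp1 <;> rcases hq' with hq1 | hq1
    · rw [hA hq1, hA hp1, hq1, hp1]
    · rw [hB hq1, ← conj_inv, hA hp1, ← conj_inv, hq1, inv_inv, hp1]
    · rw [hA hq1, hB hp1, ← conj_inv, hq1, ← conj_inv, hp1, inv_inv]
    · rw [hB hq1, ← conj_inv, hB hp1, inv_inv, hq1, ← conj_inv, hp1, inv_inv]
  have haK : (⟨a, mem_cH ha⟩ : ↥(cH d)) ∈ K := hle (hperf ▸ Subgroup.mem_top _)
  have hcomm : Commute x a := mem_cent_iff.1 haK
  rw [← hcomm.eq, mul_inv_cancel_right] at hxa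
  have h2 : x ^ 2 = 1 := by rw [pow_two]; exact mul_eq_one_iff_eq_inv.2 hxa
  rw [← orderOf_eq_one_iff]
  have hd2 := orderOf_dvd_of_pow_eq_one h2
  rcases (Nat.dvd_prime Nat.prime_two).1 hd2 with h | h
  · exact h
  · rw [h] at hxo; exact absurd hxo (by decide)

/-- The centralizer of a pair lies in the subgroup. -/
theorem pair_cent_le (H : Hyp d) {a b g : G} (ha : a ∈ comp d d)
    (hb : b ∈ nbr (conjugatesOf d) a) (hg : Commute g (a * b)) : g ∈ cH d :=
  (pair_data H ha hb).1 g hg fun _ ho h1 h2 => no_inverted H ha hb ho h1 h2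

end CfsgLib.FischerRecog58
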