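import Cfsg.Agent.U6Mult30.Main

/-!
A perfect double cover of PSU₆(2) is isomorphic to the double cover in the presented Fi22: the
three double covers are permuted by the diagonal automorphism.
-/

set_option autoImplicit false

namespace CfsgLib.FischerRecog58

open scoped commutatorElement
open CfsgLib.Unitary CfsgLib.U6Mult CfsgLib.SchurClassical CfsgLib.CosetEnum CfsgLib.CosetEnum.Fi22.U6

local notation "HH" => CfsgLib.U6Mult.H
local notation "SS" => CfsgLib.U6Mult.S

theorem exists_lift_X {C : Type} [Group C] [Finite C] (hC : commutator C = ⊤) (ρ : C →* SS)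
    (hρ : Function.Surjective ρ) (hc : ρ.ker ≤ Subgroup.center C) (h2 : Nat.card ρ.ker = 2) :
    ∃ ψ : X →* C, Function.Surjective ψ ∧ ∀ x, ρ (ψ x) = piX x := by
  have : Fact (Nat.Prime 2) := ⟨Nat.prime_two⟩
  let P : Subgroup (X × C) :=
    MonoidHom.eqLocus (piX.comp (MonoidHom.fst X C)) (ρ.comp (MonoidHom.snd X C))
  have hP : ∀ p : P, piX (p : X × C).1 = ρ (p : X × C).2 := fun p => p.2
  let σ : P →* X := (MonoidHom.fst X C).comp P.subtype
  let τ : P →* C := (MonoidHom.snd X C).comp P.subtype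
  have hσ : Function.Surjective σ := fun x => by
    obtain ⟨c, hc'⟩ := hρ (piX x)
    exact ⟨⟨(x, c), hc'.symm⟩, rfl⟩
  have hker : ∀ p ∈ σ.ker, (p : X × C).2 ∈ ρ.ker := fun p hp => by
    rw [MonoidHom.mem_ker, ← hP p, show (p : X × C).1 = 1 from hp, map_one]
  have hcen : σ.ker ≤ Subgroup.center P := fun p hp =>
    Subgroup.mem_center_iff.2 fun q => Subtype.ext (Prod.ext
      (by show (q : X × C).1 * (p : X × C).1 = (p : X × C).1 * (q : X × C).1
          rw [show (p : X × C).1 = 1 from hp, mul_one, one_mul])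
      (Subgroup.mem_center_iff.1 (hc (hker p hp)) _))
  have hpg : IsPGroup 2 σ.ker := fun p => ⟨1, Subtype.ext (Subtype.ext (Prod.ext
    (by show (p : P).1.1 ^ 2 ^ 1 = 1
        rw [show (p : P).1.1 = 1 from p.2, one_pow])
    (by show (p : P).1.2 ^ 2 ^ 1 = 1
        have h := pow_card_eq_one' (x := (⟨_, hker p p.2⟩ : ρ.ker))
        rw [h2] at h
        rw [pow_one]
        exact congrArg Subtype.val h)))⟩
  have hbot := noMult_X 2 Nat.prime_two P σ hσ hcen hpg
  have hmap : (commutator P).map σ = ⊤ := by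
    rw [commutator_def, Subgroup.map_commutator, Subgroup.map_top_of_surjective _ hσ, ← commutator_def,
      perfect_X]
  let σ' : commutator P →* X := σ.comp (commutator P).subtype
  have hbij : Function.Bijective σ' := by
    refine ⟨(injective_iff_map_eq_one _).2 fun p hp => Subtype.ext ?_, fun x => ?_⟩
    · have : (p : P) ∈ σ.ker ⊓ commutator P := ⟨hp, p.2⟩
      rwa [hbot, Subgroup.mem_bot] at this
    · obtain ⟨p, hp, e⟩ : x ∈ (commutator P).map σ := hmap ▸ Subgroup.mem_top x
      exact ⟨⟨p, hp⟩, e⟩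
  let e := MulEquiv.ofBijective σ' hbij
  let ψ : X →* C := (τ.comp (commutator P).subtype).comp e.symm.toMonoidHom
  have hψ : ∀ x, ρ (ψ x) = piX x := fun x => by
    show ρ ((e.symm x : P) : X × C).2 = piX x
    rw [← hP (e.symm x : P)]
    exact congrArg piX (e.apply_symm_apply x)
  refine ⟨ψ, ?_, hψ⟩
  have hsup : ∀ c : C, ∃ r ∈ ψ.range, ∃ k ∈ Subgroup.center C, r * k = c := fun c => by
    obtain ⟨x, hx⟩ := pi2_surjective.comp pA_surjective (ρ c)
    refine ⟨ψ x, ⟨x, rfl⟩, (ψ x)⁻¹ * c, hc ?_, mul_inv_cancel_left _ _⟩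
    rw [MonoidHom.mem_ker, map_mul, map_inv, hψ, show piX x = ρ c from hx, inv_mul_cancel]
  have hle : commutator C ≤ ψ.range := by
    rw [commutator_def, Subgroup.commutator_le]
    intro a _ b _
    obtain ⟨r, hr, k, hk, rfl⟩ := hsup a
    obtain ⟨s, hs, l, hl, rfl⟩ := hsup b
    have hk' : ∀ g, g * k = k * g := fun g => Subgroup.mem_center_iff.1 hk g
    have hl' : ∀ g, g * l = l * g := fun g => Subgroup.mem_center_iff.1 hl g
    have e : ⁅r * k, s * l⁆ = ⁅r, s⁆ := by
      simp only [commutatorElement_def, mul_inv_rev]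
      calc r * k * (s * l) * (k⁻¹ * r⁻¹) * (l⁻¹ * s⁻¹)
          = r * (k * (s * l)) * k⁻¹ * r⁻¹ * (l⁻¹ * s⁻¹) := by simp [mul_assoc]
        _ = r * (s * l) * r⁻¹ * (l⁻¹ * s⁻¹) := by rw [← hk']; simp [mul_assoc]
        _ = r * s * (l * r⁻¹) * l⁻¹ * s⁻¹ := by simp [mul_assoc]
        _ = r * s * r⁻¹ * s⁻¹ := by rw [← hl']; simp [mul_assoc]
    rw [e, commutatorElement_def]
    exact mul_mem (mul_mem (mul_mem hr hs) (inv_mem hr)) (inv_mem hs)
  rw [hC, top_le_iff, MonoidHom.range_eq_top] at hle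
  exact hle

theorem alpha_three (s : SS) : alpha (alpha (alpha s)) = s := by
  obtain ⟨A, rfl⟩ : ∃ A, mkS A = s := QuotientGroup.mk'_surjective _ s
  rw [alpha_mkS, alpha_mkS, alpha_mkS]
  congr 1
  refine sv_ext fun x => ?_
  show CfsgLib.Unitary.sv (dconjFun false (dconjFun false (dconjFun false A))) x = _
  simp only [sv_dconjFun, Bool.not_false]
  have h3 : ∀ b v, dvec b (dvec b (dvec b v)) = v := fun b v => by
    funext i
    simp only [dvec, ← mul_assoc]
    rw [show dcoef b i * dcoef b i * dcoef b i = 1 by revert b i; decide, one_mul]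
  rw [h3, h3]

/-- The diagonal automorphism does not lift to the double cover. -/
theorem no_lift (β : HH ≃* HH) : ¬ ∀ h, alpha (phi (β h)) = phi h := by
  intro hβ
  let g : HH →* X2 :=
    MonoidHom.mk' (fun h => ⟨(h, β h), mem_X2.2 (hβ h).symm⟩)
      (fun a b => Subtype.ext (Prod.ext rfl (map_mul β a b)))
  have hinj : Function.Injective g := fun a b h => congrArg (fun p : X2 => (p : HH × HH).1) h
  have hcard : Nat.card g.range = Nat.card HH :=
    (Nat.card_congr (MonoidHom.ofInjective hinj).toEquiv).symm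
  have hidx : g.range.index = 2 := by
    have h := g.range.card_mul_index
    rw [hcard, card_clH, card_X2] at h
    norm_num at h
    omega
  have := Subgroup.normal_of_index_eq_two hidx
  have : IsMulCommutative (X2 ⧸ g.range) :=
    @IsCyclic.isMulCommutative _ _
      (@isCyclic_of_prime_card _ _ 2 ⟨Nat.prime_two⟩ (by rw [← Subgroup.index_eq_card, hidx]))
  have hle := Subgroup.Normal.quotient_commutative_iff_commutator_le.1 this
  rw [perfect_X2, top_le_iff] at hle
  rw [hle, Subgroup.index_top] at hidx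
  omega

theorem iso_of_ker_le {A B C : Type} [Group A] [Group B] [Group C] [Finite B]
    {f : A →* B} {ψ : A →* C} (hf : Function.Surjective f) (hψ : Function.Surjective ψ)
    (hcard : Nat.card B = Nat.card C) (hle : f.ker ≤ ψ.ker) :
    ∃ θ : B ≃* C, ∀ a, θ (f a) = ψ a := by
  let θ : B →* C := f.liftOfSurjective hf ⟨ψ, hle⟩
  have hθ : ∀ a, θ (f a) = ψ a := fun a => f.liftOfRightInverse_comp_apply _ _ ⟨ψ, hle⟩ a
  have hs : Function.Surjective θ := fun c => by
    obtain ⟨a, rfl⟩ := hψ c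
    exact ⟨f a, hθ a⟩
  have : Finite C := Finite.of_surjective θ hs
  exact ⟨MulEquiv.ofBijective θ ((Nat.bijective_iff_surjective_and_card θ).2 ⟨hs, hcard⟩), hθ⟩

/-- The two coordinate maps. -/
noncomputable def q1 : X →* HH := ((MonoidHom.fst HH HH).comp X2.subtype).comp pA

/-- The second coordinate map. -/
noncomputable def q2 : X →* HH := ((MonoidHom.snd HH HH).comp X2.subtype).comp pA

theorem q1_surjective : Function.Surjective q1 := fun h => by
  obtain ⟨y, hy⟩ := phi_surjective (alpha.symm (phi h))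
  obtain ⟨x, hx⟩ := pA_surjective ⟨(h, y), mem_X2.2 (by rw [hy, MulEquiv.apply_symm_apply])⟩
  exact ⟨x, by show (pA x : HH × HH).1 = h; rw [hx]⟩

theorem q2_surjective : Function.Surjective q2 := fun h => by
  obtain ⟨y, hy⟩ := phi_surjective (alpha (phi h))
  obtain ⟨x, hx⟩ := pA_surjective ⟨(y, h), mem_X2.2 hy⟩
  exact ⟨x, by show (pA x : HH × HH).2 = h; rw [hx]⟩

theorem phi_q1 (x : X) : phi (q1 x) = piX x := rfl

theorem alpha_q2 (x : X) : alpha (phi (q2 x)) = piX x := (mem_X2.1 (pA x).2).symm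

theorem mem_ker_phi_iff {h : HH} : h ∈ phi.ker ↔ h = 1 ∨ h = z0 := by
  constructor
  · intro ha
    obtain ⟨x, hx, hu⟩ := (Nat.card_eq_two_iff' (1 : phi.ker)).1 card_ker_phi
    by_cases h1 : h = 1
    · exact Or.inl h1
    · have e1 := hu ⟨h, ha⟩ (fun h => h1 (congrArg Subtype.val h))
      have e2 := hu ⟨z0, phi_z0⟩ (fun h => z0_ne (congrArg Subtype.val h))
      exact Or.inr (congrArg Subtype.val (e1.trans e2.symm))
  · rintro (rfl | rfl)
    · exact one_mem _
    · exact phi_z0

/-- The kernel element with the left coordinate. -/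
noncomputable def kA : X :=
  ⟨(⟨(z0, 1), mem_X2.2 (by rw [phi_z0, map_one, map_one])⟩, 1), mem_X.2 (by
    show phi z0 = mkS 1
    rw [phi_z0, map_one])⟩

/-- The kernel element with the right coordinate. -/
noncomputable def kB : X :=
  ⟨(⟨(1, z0), mem_X2.2 (by rw [phi_z0, map_one, map_one])⟩, 1), mem_X.2 (by
    show phi 1 = mkS 1
    rw [map_one, map_one])⟩

theorem kA_ker : piX kA = 1 := phi_z0

theorem kB_ker : piX kB = 1 := map_one phi

/-- Elements of the kernel are a two-part times an element killed by every map to a double cover. -/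
theorem ker_split {C : Type} [Group C] (ρ : C →* SS) (h2 : Nat.card ρ.ker = 2)
    (ψ : X →* C) (hψ : ∀ x, ρ (ψ x) = piX x) {k : X} (hk : k ∈ piX.ker) :
    ∃ u : X, (u = 1 ∨ u = kA ∨ u = kB ∨ u = kA * kB) ∧ q1 k = q1 u ∧ q2 k = q2 u ∧ ψ k = ψ u := by
  obtain ⟨h12, hc⟩ := mem_ker_piX hk
  obtain ⟨h1, h2'⟩ := mem_ker_pi2 h12
  obtain ⟨u, hu, e1, e2, e3⟩ : ∃ u : X, (u = 1 ∨ u = kA ∨ u = kB ∨ u = kA * kB) ∧
      q1 k = q1 u ∧ q2 k = q2 u ∧ (u : X2 × SUG).2 = 1 := by
    rcases mem_ker_phi_iff.1 h1 with e | e <;> rcases mem_ker_phi_iff.1 h2' with e' | e'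
    · exact ⟨1, Or.inl rfl, e, e', rfl⟩
    · exact ⟨kB, Or.inr (Or.inr (Or.inl rfl)), e, e', rfl⟩
    · exact ⟨kA, Or.inr (Or.inl rfl), e, e', rfl⟩
    · refine ⟨kA * kB, Or.inr (Or.inr (Or.inr rfl)), ?_, ?_, one_mul 1⟩
      · rw [map_mul, show q1 kB = 1 from rfl, mul_one]; exact e
      · rw [map_mul, show q2 kA = 1 from rfl, one_mul]; exact e'
  refine ⟨u, hu, e1, e2, ?_⟩
  have hpu : piX u = 1 := by
    rcases hu with rfl | rfl | rfl | rfl <;> simp [kA_ker, kB_ker]
  have h3 : (u⁻¹ * k) ^ 3 = 1 := by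
    have hA : pA (u⁻¹ * k) = 1 := by
      rw [map_mul, map_inv, inv_mul_eq_one]
      exact Subtype.ext (Prod.ext e1.symm e2.symm)
    refine Subtype.ext (Prod.ext ?_ ?_)
    · show (pA (u⁻¹ * k)) ^ 3 = 1
      rw [hA, one_pow]
    · show ((u : X2 × SUG).2⁻¹ * (k : X2 × SUG).2) ^ 3 = 1
      rw [e3, inv_one, one_mul]
      have := pow_card_eq_one' (x := (⟨_, hc⟩ : Subgroup.center SUG))
      rw [card_center] at this
      exact congrArg Subtype.val this
  have hker : ψ (u⁻¹ * k) ∈ ρ.ker := by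
    rw [MonoidHom.mem_ker, hψ, map_mul, map_inv, hpu, MonoidHom.mem_ker.1 hk, inv_one, one_mul]
  have h2p : ψ (u⁻¹ * k) ^ 2 = 1 := by
    have := pow_card_eq_one' (x := (⟨_, hker⟩ : ρ.ker))
    rw [h2] at this
    exact congrArg Subtype.val this
  have h1' : ψ (u⁻¹ * k) = 1 := by
    have h3' : ψ (u⁻¹ * k) ^ 3 = 1 := by rw [← map_pow, h3, map_one]
    rw [pow_succ, h2p, one_mul] at h3'
    exact h3'
  rw [map_mul, map_inv, inv_mul_eq_one] at h1'
  exact h1'.symm

/-- A perfect double cover of PSU₆(2) is the one in the presented Fi22. -/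
theorem double_cover_unique {C : Type} [Group C] [Finite C] (hC : commutator C = ⊤) (ρ : C →* SS)
    (hρ : Function.Surjective ρ) (hc : ρ.ker ≤ Subgroup.center C) (h2 : Nat.card ρ.ker = 2) :
    Nonempty (C ≃* HH) := by
  have hperfH : commutator HH = ⊤ := by
    have h := perfect_X
    have e := congrArg (Subgroup.map q1) h
    rwa [commutator_def, Subgroup.map_commutator, Subgroup.map_top_of_surjective _ q1_surjective,
      ← commutator_def] at e
  have hcardC : Nat.card HH = Nat.card C := by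
    rw [← phi.ker.card_mul_index, ← ρ.ker.card_mul_index, card_ker_phi, h2, Subgroup.index_ker,
      Subgroup.index_ker, MonoidHom.range_eq_top.2 hρ, MonoidHom.range_eq_top.2 phi_surjective]
  let α2 : HH →* SS := (alpha.trans alpha).toMonoidHom.comp phi
  have h2' : Nat.card α2.ker = 2 := by
    have e : α2.ker = phi.ker := by
      ext h
      exact ((alpha.trans alpha).map_eq_one_iff)
    exact e ▸ card_ker_phi
  obtain ⟨q3, hq3s, hq3⟩ := exists_lift_X hperfH α2 ((alpha.trans alpha).surjective.comp phi_surjective)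
    (fun h hh => ker_phi_le ((alpha.trans alpha).map_eq_one_iff.1 hh)) h2'
  obtain ⟨ψ, hψs, hψ⟩ := exists_lift_X hC ρ hρ hc h2
  have hpix : ∀ {D : Type} [Group D] (r : D →* SS) (f : X →* D), (∀ x, r (f x) = piX x) →
      ∀ k, f k = 1 → k ∈ piX.ker := fun r f hf k hk => by
    rw [MonoidHom.mem_ker, ← hf, hk, map_one]
  have hA : ∀ {D : Type} [Group D] (r : D →* SS) (f : X →* D), Nat.card r.ker = 2 →
      (∀ x, r (f x) = piX x) → f kA = 1 → q2.ker ≤ f.ker := by
    intro D _ r f hr hf hkA k hk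
    obtain ⟨u, hu, e1, e2, e3⟩ := ker_split r hr f hf (k := k) (by
      rw [MonoidHom.mem_ker, ← alpha_q2, MonoidHom.mem_ker.1 hk, map_one, map_one])
    rw [MonoidHom.mem_ker, e3]
    rw [MonoidHom.mem_ker.1 hk] at e2
    rcases hu with rfl | rfl | rfl | rfl
    · exact map_one f
    · exact hkA
    · exact absurd e2.symm z0_ne
    · exact absurd (by rw [map_mul, show q2 kA = 1 from rfl, one_mul] at e2; exact e2.symm) z0_ne
  have hB : ∀ {D : Type} [Group D] (r : D →* SS) (f : X →* D), Nat.card r.ker = 2 →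
      (∀ x, r (f x) = piX x) → f kB = 1 → q1.ker ≤ f.ker := by
    intro D _ r f hr hf hkB k hk
    obtain ⟨u, hu, e1, e2, e3⟩ := ker_split r hr f hf (k := k) (by
      rw [MonoidHom.mem_ker, ← phi_q1, MonoidHom.mem_ker.1 hk, map_one])
    rw [MonoidHom.mem_ker, e3]
    rw [MonoidHom.mem_ker.1 hk] at e1
    rcases hu with rfl | rfl | rfl | rfl
    · exact map_one f
    · exact absurd e1.symm z0_ne
    · exact hkB
    · exact absurd (by rw [map_mul, show q1 kB = 1 from rfl, mul_one] at e1; exact e1.symm) z0_ne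
  by_cases hkA : ψ kA = 1
  · obtain ⟨θ, -⟩ := iso_of_ker_le q2_surjective hψs hcardC (hA ρ ψ h2 hψ hkA)
    exact ⟨θ.symm⟩
  by_cases hkB : ψ kB = 1
  · obtain ⟨θ, -⟩ := iso_of_ker_le q1_surjective hψs hcardC (hB ρ ψ h2 hψ hkB)
    exact ⟨θ.symm⟩
  have hqA : q3 kA ≠ 1 := by
    intro h
    obtain ⟨β, hβ⟩ := iso_of_ker_le q2_surjective hq3s rfl (hA α2 q3 h2' hq3 h)
    refine no_lift β fun y => ?_
    obtain ⟨x, rfl⟩ := q2_surjective y
    rw [hβ]
    apply alpha.injective
    rw [alpha_q2]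
    exact hq3 x
  have hqB : q3 kB ≠ 1 := by
    intro h
    obtain ⟨β, hβ⟩ := iso_of_ker_le q1_surjective hq3s rfl (hB α2 q3 h2' hq3 h)
    have key : ∀ y, alpha (alpha (phi (β y))) = phi y := fun y => by
      obtain ⟨x, rfl⟩ := q1_surjective y
      rw [hβ, phi_q1]
      exact hq3 x
    refine no_lift β.symm fun y => ?_
    obtain ⟨x, rfl⟩ := β.surjective y
    rw [MulEquiv.symm_apply_apply, ← key x, alpha_three]
  have hab : ψ (kA * kB) = 1 := by
    have hAk : ψ kA ∈ ρ.ker := by rw [MonoidHom.mem_ker, hψ, kA_ker]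
    have hBk : ψ kB ∈ ρ.ker := by rw [MonoidHom.mem_ker, hψ, kB_ker]
    obtain ⟨z, hz, hu⟩ := (Nat.card_eq_two_iff' (1 : ρ.ker)).1 h2
    have a1 := hu ⟨_, hAk⟩ fun e => hkA (congrArg Subtype.val e)
    have b1 := hu ⟨_, hBk⟩ fun e => hkB (congrArg Subtype.val e)
    have sq : (⟨_, hAk⟩ : ρ.ker) ^ 2 = 1 := by
      have h := pow_card_eq_one' (x := (⟨_, hAk⟩ : ρ.ker))
      rwa [h2] at h
    rw [map_mul, show ψ kB = ψ kA from congrArg Subtype.val (b1.trans a1.symm), ← pow_two]
    exact congrArg Subtype.val sq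
  obtain ⟨θ, -⟩ := iso_of_ker_le hq3s hψs hcardC fun k hk => by
    obtain ⟨u, hu, e1, e2, e3⟩ := ker_split α2 h2' q3 hq3 (k := k) (hpix α2 q3 hq3 k hk)
    rw [MonoidHom.mem_ker] at hk
    rw [hk] at e3
    have e3' : ψ k = ψ u := by
      obtain ⟨u', hu', e1', e2', e3'⟩ := ker_split ρ h2 ψ hψ (k := k) (hpix α2 q3 hq3 k hk)
      have : u = u' := by
        have h1 : q1 u = q1 u' := e1.symm.trans e1'
        have h2 : q2 u = q2 u' := e2.symm.trans e2'
        rcases hu with rfl | rfl | rfl | rfl <;> rcases hu' with rfl | rfl | rfl | rfl <;>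
          first
            | rfl
            | (exfalso; simp only [map_mul, map_one, show q1 kA = z0 from rfl,
                show q1 kB = 1 from rfl, show q2 kA = 1 from rfl, show q2 kB = z0 from rfl,
                one_mul, mul_one] at h1 h2
               first
                | exact z0_ne h1
                | exact z0_ne h1.symm
                | exact z0_ne h2
                | exact z0_ne h2.symm)
      rw [e3', this]
    rw [MonoidHom.mem_ker, e3']
    rcases hu with rfl | rfl | rfl | rfl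
    · exact map_one _
    · exact absurd e3.symm hqA
    · exact absurd e3.symm hqB
    · exact hab
  exact ⟨θ.symm⟩

end CfsgLib.FischerRecog58
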