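import Cfsg.Agent.FischerRecog58.Chart

/-!
Fusion: the conjugates of the transposition in its centralizer are itself and the neighbours.
-/

set_option autoImplicit false
set_option maxRecDepth 100000

namespace CfsgLib.FischerRecog58

open Cfsg CfsgLib.ThreeTransp CfsgLib.CosetEnum CfsgLib.CosetEnum.Fi22

universe u

variable {G : Type u} [Group G] {d : G} (X : Chart d)

/-- The centralizer inside, from the presented group. -/
noncomputable def Chart.inc : ↥Hs →* G :=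
  (Subgroup.centralizer ({d} : Set G)).subtype.comp X.θ.symm.toMonoidHom

theorem Chart.inc_injective : Function.Injective X.inc :=
  (Subgroup.subtype_injective _).comp X.θ.symm.injective

theorem Chart.inc_commute (x : ↥Hs) : Commute d (X.inc x) := mem_cent_iff.1 (X.θ.symm x).2

theorem Chart.exists_inc {g : G} (h : Commute d g) : ∃ x, X.inc x = g :=
  ⟨X.θ ⟨g, mem_cent_iff.2 h⟩, congrArg Subtype.val (X.θ.symm_apply_apply _)⟩

/-- The centre of the presented centralizer. -/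
noncomputable def aH : ↥Hs := ⟨U6.a0, U6.mem_Hs_of_commute rfl⟩

theorem Chart.inc_aH : X.inc aH = d := by
  have e : aH = X.θ ⟨d, self_mem_cent d⟩ := Subtype.ext X.θd.symm
  rw [e]
  exact congrArg Subtype.val (X.θ.symm_apply_apply _)

/-- A coordinate vector in the centralizer. -/
noncomputable def vH (n : ℕ) : ↥Hs := ⟨vfun n, A22_le_Hs (vfun_mem n)⟩

theorem vH_one : vH 1 = aH := by
  refine Subtype.ext ?_
  show vfun 1 = U6.a0
  rw [← bm_zero, bm_vfun]
  congr 1

theorem vH_xor (m n : ℕ) : vH (m ^^^ n) = vH m * vH n := Subtype.ext (vfun_xor m n)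

/-- The group of the base inside. -/
noncomputable def Chart.AG : Subgroup G := (A22.subgroupOf Hs).map X.inc

theorem Chart.mem_AG {g : G} : g ∈ X.AG ↔ ∃ n < 1024, X.inc (vH n) = g := by
  constructor
  · rintro ⟨x, hx, rfl⟩
    obtain ⟨n, hn, e⟩ := vfun_surj hx
    exact ⟨n, hn, congrArg X.inc (Subtype.ext e)⟩
  · rintro ⟨n, -, rfl⟩
    exact ⟨vH n, vfun_mem n, rfl⟩

theorem Chart.AG_sq {g : G} (hg : g ∈ X.AG) : g * g = 1 := by
  obtain ⟨n, -, rfl⟩ := X.mem_AG.1 hg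
  rw [← map_mul, show vH n * vH n = 1 from Subtype.ext (A22_span (vfun_mem n)).1, map_one]

theorem Chart.AG_comm {g k : G} (hg : g ∈ X.AG) (hk : k ∈ X.AG) : Commute g k := by
  obtain ⟨n, -, rfl⟩ := X.mem_AG.1 hg
  obtain ⟨m, -, rfl⟩ := X.mem_AG.1 hk
  exact (show Commute (vH n) (vH m) from Subtype.ext (A22_abel (vfun_mem n) (vfun_mem m))).map X.inc

variable [Finite G]

/-- A conjugate of `d` in the base group is carried from `d` by an element normalizing that group. -/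
theorem Chart.exists_normalize {x : G} (hx : x ∈ X.AG) (hc : IsConj d x) :
    ∃ h : G, h * d * h⁻¹ = x ∧ (∀ a ∈ X.AG, h * a * h⁻¹ ∈ X.AG) := by
  have := finite_fi22
  obtain ⟨g, rfl⟩ := isConj_iff.1 hc
  have hback : ∀ a ∈ X.AG, Commute d (g⁻¹ * a * g) := fun a ha => by
    have h := (X.AG_comm hx ha).eq
    show d * (g⁻¹ * a * g) = g⁻¹ * a * g * d
    calc d * (g⁻¹ * a * g) = g⁻¹ * (g * d * g⁻¹ * a) * g := by group
      _ = g⁻¹ * (a * (g * d * g⁻¹)) * g := by rw [h]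
      _ = g⁻¹ * a * g * d := by group
  let back : ↥X.AG →* ↥Hs := MonoidHom.mk'
    (fun a => X.θ ⟨g⁻¹ * a * g, mem_cent_iff.2 (hback a a.2)⟩)
    (fun a b => by
      rw [← map_mul]
      congr 1
      refine Subtype.ext ?_
      show g⁻¹ * ((a : G) * b) * g = (g⁻¹ * a * g) * (g⁻¹ * b * g)
      group)
  have hbi : Function.Injective back := fun a b h => by
    have := congrArg Subtype.val (X.θ.injective h)
    exact Subtype.ext (mul_left_cancel (mul_right_cancel this))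
  let E : Subgroup Spor.Fi22 := back.range.map Hs.subtype
  have hE : E ≤ Hs := by rintro _ ⟨y, -, rfl⟩; exact y.2
  have he : ∀ y ∈ E, y * y = 1 := by
    rintro _ ⟨_, ⟨a, rfl⟩, rfl⟩
    rw [← map_mul, ← map_mul, show a * a = 1 from Subtype.ext (X.AG_sq a.2), map_one, map_one]
  have hcard : Nat.card E = 1024 := by
    rw [← Nat.card_congr (Subgroup.equivMapOfInjective _ _ Hs.subtype_injective).toEquiv,
      ← Nat.card_congr (MonoidHom.ofInjective hbi).toEquiv, Chart.AG,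
      ← Nat.card_congr (Subgroup.equivMapOfInjective _ _ X.inc_injective).toEquiv,
      Nat.card_congr (Subgroup.subgroupOfEquivOfLe A22_le_Hs).toEquiv, card_A22]
  obtain ⟨c, hcH, hcE⟩ := elem_conj hE he hcard
  obtain ⟨k, hk⟩ : ∃ k, k = X.inc ⟨c, hcH⟩ := ⟨_, rfl⟩
  have hkd : k * d * k⁻¹ = d := by
    rw [hk, ← (X.inc_commute ⟨c, hcH⟩).eq, mul_inv_cancel_right]
  have key : ∀ a ∈ X.AG, k * (g⁻¹ * a * g) * k⁻¹ ∈ X.AG := by
    intro a ha
    have hm : c * ((back ⟨a, ha⟩ : ↥Hs) : Spor.Fi22) * c⁻¹ ∈ A22 :=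
      hcE ▸ ⟨_, ⟨_, ⟨⟨a, ha⟩, rfl⟩, rfl⟩, rfl⟩
    refine ⟨⟨c, hcH⟩ * back ⟨a, ha⟩ * ⟨c, hcH⟩⁻¹, hm, ?_⟩
    rw [map_mul, map_mul, map_inv, ← hk]
    congr 2
    exact congrArg Subtype.val (X.θ.symm_apply_apply _)
  refine ⟨g * k⁻¹, ?_, fun a ha => ?_⟩
  · calc g * k⁻¹ * d * (g * k⁻¹)⁻¹ = g * (k⁻¹ * (k * d * k⁻¹) * k) * g⁻¹ := by
          rw [hkd]; group
      _ = g * d * g⁻¹ := by group
  · -- conjugation by `k g⁻¹` maps the group into itself, hence onto
    have hb : Function.Bijective (fun a : X.AG => (⟨_, key a a.2⟩ : X.AG)) :=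
      Finite.injective_iff_bijective.1 fun a b h => Subtype.ext (by
        have := congrArg Subtype.val h
        exact mul_left_cancel (mul_right_cancel (mul_left_cancel (mul_right_cancel this))))
    obtain ⟨⟨b, hb'⟩, e⟩ := hb.2 ⟨a, ha⟩
    have e' : k * (g⁻¹ * b * g) * k⁻¹ = a := congrArg Subtype.val e
    rw [show g * k⁻¹ * a * (g * k⁻¹)⁻¹ = b by rw [← e']; group]
    exact hb'

/-- The fused coordinate vectors. -/
def Chart.fused (n : ℕ) : Prop := IsConj d (X.inc (vH n))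

theorem Chart.fused_linI (k : ℕ) (hk : k < 5) (n : ℕ) :
    X.fused n ↔ X.fused (linI k n) := by
  have h := (linI_spec (k := k) (by omega) n).2
  have hm : hel k ∈ Hs := U6.mem_Hs_of_commute (hel_comm (by omega))
  have e : (⟨hel k, hm⟩ : ↥Hs) * vH n * ⟨hel k, hm⟩⁻¹ = vH (linI k n) := Subtype.ext h
  rw [Chart.fused, Chart.fused, ← e, map_mul, map_mul, map_inv]
  have hc : IsConj (X.inc (vH n))
      (X.inc ⟨hel k, hm⟩ * X.inc (vH n) * (X.inc ⟨hel k, hm⟩)⁻¹) := isConj_iff.2 ⟨_, rfl⟩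
  exact ⟨fun h => h.trans hc, fun h => h.trans hc.symm⟩

theorem Chart.fused_one : X.fused 1 := by
  rw [Chart.fused, vH_one, X.inc_aH]

theorem Chart.inc_vH_inj {m n : ℕ} (hm : m < 1024) (hn : n < 1024)
    (h : X.inc (vH m) = X.inc (vH n)) : m = n :=
  vfun_inj hm hn (congrArg Subtype.val (X.inc_injective h))

theorem Chart.fused_pos {n : ℕ} (hd : d ≠ 1) (h : X.fused n) : 0 < n := by
  rcases Nat.eq_zero_or_pos n with rfl | hn
  · exfalso
    rw [Chart.fused, show vH 0 = 1 from Subtype.ext vfun_zero, map_one, isConj_one_left] at h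
    exact hd h
  · exact hn

/-- An element normalizing the base group gives a linear map of the coordinates. -/
theorem Chart.exists_linear {h : G} (hA : ∀ a ∈ X.AG, h * a * h⁻¹ ∈ X.AG) :
    ∃ f : ℕ → ℕ, (∀ n < 1024, f n < 1024 ∧ h * X.inc (vH n) * h⁻¹ = X.inc (vH (f n))) ∧
      (∀ m < 1024, ∀ n < 1024, f (m ^^^ n) = f m ^^^ f n) ∧
      (∀ n < 1024, X.fused n ↔ X.fused (f n)) ∧
      (∀ r < 1024, ∃ n < 1024, f n = r) ∧ (∀ m < 1024, ∀ n < 1024, f m = f n → m = n) := by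
  have hex : ∀ n, ∃ m, n < 1024 → m < 1024 ∧ h * X.inc (vH n) * h⁻¹ = X.inc (vH m) := fun n => by
    by_cases hn : n < 1024
    · obtain ⟨m, hm, e⟩ := X.mem_AG.1 (hA _ (X.mem_AG.2 ⟨n, hn, rfl⟩))
      exact ⟨m, fun _ => ⟨hm, e.symm⟩⟩
    · exact ⟨0, fun h => absurd h hn⟩
  choose f hf using hex
  have hinj : ∀ m < 1024, ∀ n < 1024, f m = f n → m = n := fun m hm n hn e => by
    refine X.inc_vH_inj hm hn ?_
    have h1 := (hf m hm).2
    rw [e, ← (hf n hn).2] at h1
    exact mul_left_cancel (mul_right_cancel h1)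
  refine ⟨f, hf, fun m hm n hn => ?_, fun n hn => ?_, fun r hr => ?_, hinj⟩
  · have hx := Nat.xor_lt_two_pow (n := 10) hm hn
    refine X.inc_vH_inj (hf _ hx).1 (Nat.xor_lt_two_pow (n := 10) (hf m hm).1 (hf n hn).1) ?_
    rw [← (hf _ hx).2, vH_xor, vH_xor, map_mul, map_mul, ← (hf m hm).2, ← (hf n hn).2]
    group
  · have hc : IsConj (X.inc (vH n)) (X.inc (vH (f n))) := isConj_iff.2 ⟨h, (hf n hn).2⟩
    exact ⟨fun e => e.trans hc, fun e => e.trans hc.symm⟩
  · have hb : Function.Bijective (fun n : Fin 1024 => (⟨f n, (hf n n.2).1⟩ : Fin 1024)) :=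
      Finite.injective_iff_bijective.1 fun a b e =>
        Fin.ext (hinj a a.2 b b.2 (congrArg Fin.val e))
    obtain ⟨n, hn⟩ := hb.2 ⟨r, hr⟩
    exact ⟨n, n.2, congrArg Fin.val hn⟩

end CfsgLib.FischerRecog58
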