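import Cfsg.Agent.FischerRecog58.Fusion

/-!
The conjugates of the transposition commuting with it correspond to the neighbours of the generator.
-/

set_option autoImplicit false
set_option maxRecDepth 100000

namespace CfsgLib.FischerRecog58

open Cfsg CfsgLib.ThreeTransp CfsgLib.CosetEnum CfsgLib.CosetEnum.Fi22

universe u

variable {G : Type u} [Group G] [Finite G] {d : G} (X : Chart d)

/-- The Sylow part inside. -/
noncomputable def Chart.TG : Subgroup G := (S2.subgroupOf Hs).map X.inc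

theorem Chart.card_TG : Nat.card X.TG = 65536 := by
  rw [Chart.TG, ← Nat.card_congr (Subgroup.equivMapOfInjective _ _ X.inc_injective).toEquiv,
    Nat.card_congr (Subgroup.subgroupOfEquivOfLe S2_le_Hs).toEquiv, card_S2]

theorem Chart.AG_le_TG : X.AG ≤ X.TG :=
  Subgroup.map_mono fun _ hx => A22_le_S2 hx

theorem Chart.TG_commute {g : G} (hg : g ∈ X.TG) : Commute d g := by
  obtain ⟨x, -, rfl⟩ := hg
  exact X.inc_commute x

theorem sylow_conj_S2 {P : Subgroup ↥Hs} (hP : Nat.card P = 65536) :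
    ∃ c : ↥Hs, ∀ x ∈ P, c * x * c⁻¹ ∈ S2.subgroupOf Hs := by
  have := finite_fi22
  have : Fact (Nat.Prime 2) := ⟨Nat.prime_two⟩
  have hval : (Nat.card ↥Hs).factorization 2 = 16 := by
    rw [card_Hs, Nat.factorization_def _ Nat.prime_two,
      show (18393661440 : ℕ) = 280665 * 2 ^ 16 from by norm_num,
      padicValNat.mul (by norm_num) (by norm_num), padicValNat.prime_pow,
      padicValNat.eq_zero_of_not_dvd (by norm_num : ¬ 2 ∣ 280665), zero_add]
  let P' : Sylow 2 ↥Hs := Sylow.ofCard P (by rw [hval, hP]; norm_num)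
  let Q' : Sylow 2 ↥Hs := Sylow.ofCard (S2.subgroupOf Hs) (by
    rw [hval, Nat.card_congr (Subgroup.subgroupOfEquivOfLe S2_le_Hs).toEquiv, card_S2]; norm_num)
  obtain ⟨c, hc⟩ := MulAction.exists_smul_eq (↥Hs) P' Q'
  refine ⟨c, fun x hx => ?_⟩
  have h : MulAut.conj c • x ∈ ((c • P' : Sylow 2 ↥Hs) : Subgroup ↥Hs) := by
    rw [Sylow.coe_subgroup_smul]
    exact Subgroup.smul_mem_pointwise_smul x (MulAut.conj c) _ hx
  rw [hc] at h
  exact h

/-- The Sylow part cannot move the fixed vector of the other kind. -/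
theorem Chart.not_fused_sylow : ¬ X.fused 802 := by
  intro hf
  have := finite_fi22
  have hs := sylow_check
  simp only [Bool.and_eq_true, Bool.not_eq_true', Nat.beq_eq, decide_eq_true_eq,
    ← Bool.not_eq_true] at hs
  obtain ⟨⟨⟨⟨⟨⟨⟨⟨⟨z5, z6⟩, z7⟩, z8⟩, o5⟩, o6⟩, o7⟩, o8⟩, -⟩, hne⟩ := hs
  have hz : ∀ g < 4, linI (5 + g) 802 = 802 := fun g hg => by interval_cases g <;> assumption
  have ho : ∀ g < 4, linI (5 + g) 1 = 1 := fun g hg => by interval_cases g <;> assumption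
  set x := X.inc (vH 802) with hx
  obtain ⟨g, hg⟩ := isConj_iff.1 (show IsConj d x from hf)
  have hfix : ∀ t ∈ X.TG, Commute x t := by
    rintro _ ⟨t, ht, rfl⟩
    refine Commute.map (Subtype.ext ?_) X.inc
    exact (mul_inv_eq_iff_eq_mul.1 (S2_fixes hz ht)).symm
  have hback : ∀ t ∈ X.TG, Commute d (g⁻¹ * t * g) := fun t ht => by
    have h := (hfix t ht).eq
    rw [← hg] at h
    show d * (g⁻¹ * t * g) = g⁻¹ * t * g * d
    calc d * (g⁻¹ * t * g) = g⁻¹ * (g * d * g⁻¹ * t) * g := by group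
      _ = g⁻¹ * (t * (g * d * g⁻¹)) * g := by rw [h]
      _ = g⁻¹ * t * g * d := by group
  let back : ↥X.TG →* ↥Hs := MonoidHom.mk'
    (fun t => X.θ ⟨g⁻¹ * t * g, mem_cent_iff.2 (hback t t.2)⟩)
    (fun a b => by
      rw [← map_mul]
      congr 1
      refine Subtype.ext ?_
      show g⁻¹ * ((a : G) * b) * g = (g⁻¹ * a * g) * (g⁻¹ * b * g)
      group)
  have hbi : Function.Injective back := fun a b h => by
    have := congrArg Subtype.val (X.θ.injective h)
    exact Subtype.ext (mul_left_cancel (mul_right_cancel this))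
  obtain ⟨c, hc⟩ := sylow_conj_S2 (P := back.range) (by
    rw [← Nat.card_congr (MonoidHom.ofInjective hbi).toEquiv, X.card_TG])
  set k := X.inc c with hk
  have hkd : k * d * k⁻¹ = d := by rw [← (X.inc_commute c).eq, mul_inv_cancel_right]
  have key : ∀ t ∈ X.TG, k * (g⁻¹ * t * g) * k⁻¹ ∈ X.TG := fun t ht => by
    refine ⟨c * back ⟨t, ht⟩ * c⁻¹, hc _ ⟨_, rfl⟩, ?_⟩
    rw [map_mul, map_mul, map_inv, ← hk]
    congr 2
    exact congrArg Subtype.val (X.θ.symm_apply_apply _)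
  have keyA : ∀ a ∈ X.AG, k * (g⁻¹ * a * g) * k⁻¹ ∈ X.AG := fun a ha => by
    obtain ⟨y, hy, ey⟩ := key a (X.AG_le_TG ha)
    have hE : ∀ b : G, b ∈ X.AG → ∃ y : ↥Hs, (y : Spor.Fi22) ∈ S2 ∧ X.inc y = k * (g⁻¹ * b * g) * k⁻¹ :=
      fun b hb => key b (X.AG_le_TG hb)
    let conjH : ↥X.AG →* G := (MulAut.conj (k * g⁻¹)).toMonoidHom.comp X.AG.subtype
    let E : Subgroup ↥Hs := conjH.range.comap X.inc
    have hEe : E.map Hs.subtype = A22 := by
      have hEimg : E.map X.inc = conjH.range := by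
        refine Subgroup.map_comap_eq_self ?_
        rintro _ ⟨b, rfl⟩
        obtain ⟨y, -, e⟩ := hE b b.2
        exact ⟨y, e.trans (by show _ = k * g⁻¹ * (b : G) * (k * g⁻¹)⁻¹; group)⟩
      refine A22_unique (P := S2) (IsPGroup.of_card (n := 16) (by rw [card_S2]; norm_num))
        A22_le_S2 ?_ ?_ ?_
      · rintro _ ⟨z, ⟨b, hb⟩, rfl⟩
        obtain ⟨y, hy, e⟩ := hE b b.2
        have : y = z := X.inc_injective (e.trans (by
          rw [← hb]
          show k * (g⁻¹ * (b : G) * g) * k⁻¹ = k * g⁻¹ * (b : G) * (k * g⁻¹)⁻¹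
          group))
        exact this ▸ hy
      · rintro _ ⟨z, ⟨b, hb⟩, rfl⟩
        rw [← map_mul, show z * z = 1 from X.inc_injective (by
          rw [map_mul, map_one, ← hb, ← map_mul, show b * b = 1 from Subtype.ext (X.AG_sq b.2),
            map_one]), map_one]
      · rw [← Nat.card_congr (Subgroup.equivMapOfInjective _ _ Hs.subtype_injective).toEquiv,
          Nat.card_congr (Subgroup.equivMapOfInjective E _ X.inc_injective).toEquiv, hEimg,
          ← Nat.card_congr (MonoidHom.ofInjective (f := conjH) fun a b h => Subtype.ext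
            ((MulAut.conj (k * g⁻¹)).injective h)).toEquiv, Chart.AG,
          ← Nat.card_congr (Subgroup.equivMapOfInjective _ _ X.inc_injective).toEquiv,
          Nat.card_congr (Subgroup.subgroupOfEquivOfLe A22_le_Hs).toEquiv, card_A22]
    refine ⟨y, ?_, ey⟩
    show (y : Spor.Fi22) ∈ A22
    rw [← hEe]
    exact ⟨y, ⟨⟨a, ha⟩, (show k * g⁻¹ * a * (k * g⁻¹)⁻¹ = X.inc y by rw [ey]; group)⟩, rfl⟩
  -- `w = k g⁻¹` normalizes both groups and carries `x` to `d`
  have hwx : k * g⁻¹ * x * (k * g⁻¹)⁻¹ = d := by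
    calc k * g⁻¹ * x * (k * g⁻¹)⁻¹ = k * (g⁻¹ * x * g) * k⁻¹ := by group
      _ = k * d * k⁻¹ := by rw [← hg]; group
      _ = d := hkd
  let TS : G → Set G := fun z => {a | a ∈ X.AG ∧ ∀ t ∈ X.TG, t * a * t⁻¹ = a ∨ t * a * t⁻¹ = a * z}
  have hTS : ∀ n < 1024, TS (X.inc (vH n)) =
      X.inc '' {y : ↥Hs | (y : Spor.Fi22) ∈ twoSet S2 A22 (vfun n)} := by
    intro n hn
    ext a
    constructor
    · rintro ⟨⟨y, hy, rfl⟩, h⟩
      refine ⟨y, ⟨hy, fun t ht => ?_⟩, rfl⟩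
      have h' := h _ ⟨⟨t, S2_le_Hs ht⟩, ht, rfl⟩
      rw [← map_mul, ← map_inv, ← map_mul, ← map_mul] at h'
      exact h'.imp (fun e => congrArg Subtype.val (X.inc_injective e))
        fun e => congrArg Subtype.val (X.inc_injective e)
    · rintro ⟨y, ⟨hy, h⟩, rfl⟩
      refine ⟨⟨y, hy, rfl⟩, ?_⟩
      rintro _ ⟨t, ht, rfl⟩
      rw [← map_mul, ← map_inv, ← map_mul, ← map_mul]
      exact (h _ ht).imp (fun e => congrArg X.inc (Subtype.ext e))
        fun e => congrArg X.inc (Subtype.ext e)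
  have hcnt : ∀ n < 1024, (∀ g < 4, linI (5 + g) n = n) → (TS (X.inc (vH n))).ncard = fcnt n := by
    intro n hn hfx
    rw [hTS n hn, Set.ncard_image_of_injective _ X.inc_injective, ← twoSet_card hfx hn,
      ← Set.ncard_image_of_injective _ (Subtype.val_injective (p := fun z => z ∈ Hs))]
    congr 1
    ext z
    exact ⟨fun ⟨y, hy, e⟩ => e ▸ hy, fun hz => ⟨⟨z, A22_le_Hs hz.1⟩, hz, rfl⟩⟩
  set w := k * g⁻¹ with hw
  have hwT : ∀ t ∈ X.TG, w * t * w⁻¹ ∈ X.TG := fun t ht => by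
    rw [hw, show k * g⁻¹ * t * (k * g⁻¹)⁻¹ = k * (g⁻¹ * t * g) * k⁻¹ by group]
    exact key t ht
  have hwA : ∀ t ∈ X.AG, w * t * w⁻¹ ∈ X.AG := fun t ht => by
    rw [hw, show k * g⁻¹ * t * (k * g⁻¹)⁻¹ = k * (g⁻¹ * t * g) * k⁻¹ by group]
    exact keyA t ht
  have hsurT : ∀ t ∈ X.TG, ∃ s ∈ X.TG, w * s * w⁻¹ = t := fun t ht => by
    have hb : Function.Bijective (fun a : X.TG => (⟨_, hwT a a.2⟩ : X.TG)) :=
      Finite.injective_iff_bijective.1 fun a b h => Subtype.ext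
        (mul_left_cancel (mul_right_cancel (congrArg Subtype.val h)))
    obtain ⟨s, e⟩ := hb.2 ⟨t, ht⟩
    exact ⟨s, s.2, congrArg Subtype.val e⟩
  have hsurA : ∀ t ∈ X.AG, ∃ s ∈ X.AG, w * s * w⁻¹ = t := fun t ht => by
    have hb : Function.Bijective (fun a : X.AG => (⟨_, hwA a a.2⟩ : X.AG)) :=
      Finite.injective_iff_bijective.1 fun a b h => Subtype.ext
        (mul_left_cancel (mul_right_cancel (congrArg Subtype.val h)))
    obtain ⟨s, e⟩ := hb.2 ⟨t, ht⟩
    exact ⟨s, s.2, congrArg Subtype.val e⟩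
  have himg : (fun a => w * a * w⁻¹) '' TS x = TS d := by
    ext b
    constructor
    · rintro ⟨a, ⟨ha, h⟩, rfl⟩
      refine ⟨hwA a ha, fun t ht => ?_⟩
      obtain ⟨s, hs', rfl⟩ := hsurT t ht
      refine (h s hs').imp (fun e => ?_) fun e => ?_
      · calc _ = w * (s * a * s⁻¹) * w⁻¹ := by group
          _ = _ := by rw [e]
      · calc _ = w * (s * a * s⁻¹) * w⁻¹ := by group
          _ = w * a * w⁻¹ * (w * x * w⁻¹) := by rw [e]; group
          _ = _ := by rw [hwx]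
    · rintro ⟨hb, h⟩
      obtain ⟨a, ha, rfl⟩ := hsurA b hb
      refine ⟨a, ⟨ha, fun t ht => ?_⟩, rfl⟩
      refine (h _ (hwT t ht)).imp (fun e => ?_) fun e => ?_
      · refine mul_left_cancel (mul_right_cancel (b := w⁻¹) (a := w * (t * a * t⁻¹)) (c := w * a) ?_)
        calc _ = w * t * w⁻¹ * (w * a * w⁻¹) * (w * t * w⁻¹)⁻¹ := by group
          _ = _ := e
      · refine mul_left_cancel (mul_right_cancel (b := w⁻¹) (a := w * (t * a * t⁻¹))
          (c := w * (a * x)) ?_)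
        calc _ = w * t * w⁻¹ * (w * a * w⁻¹) * (w * t * w⁻¹)⁻¹ := by group
          _ = w * a * w⁻¹ * d := e
          _ = _ := by rw [← hwx]; group
  apply hne
  rw [← hcnt 802 (by norm_num) hz, ← hcnt 1 (by norm_num) ho, ← hx, vH_one, X.inc_aH, ← himg,
    Set.ncard_image_of_injective _ fun a b h => mul_left_cancel (mul_right_cancel h)]

/-- The fused vectors are those of the members of the base. -/
theorem Chart.fused_single (hd : d ≠ 1) {n : ℕ} (hn : n < 1024) (h : X.fused n) :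
    ∃ i : Fin 22, vfun n = bm i := by
  classical
  obtain ⟨m, hm, hO⟩ := union_eq (P := X.fused) (fun k hk n _ => X.fused_linI k hk n) X.fused_one
  have hinO := (hO n (X.fused_pos hd h) hn).1 h
  suffices hm1 : m = 0 ∨ m = 1 by
    have h1 : inO 1 n = true := by
      rcases hm1 with rfl | rfl
      · simp only [inO, Bool.and_eq_true, Bool.or_eq_true, Nat.zero_testBit, Bool.false_eq_true,
          or_false] at hinO ⊢
        exact ⟨hinO.1, Or.inl hinO.2⟩
      · exact hinO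
    have hs := List.all_eq_true.1 single_check n (List.mem_range.2 hn)
    rw [beq_iff_eq, h1, eq_comm, List.any_eq_true] at hs
    obtain ⟨i, hi, e⟩ := hs
    exact ⟨⟨i, List.mem_range.1 hi⟩, by rw [bm_vfun, Nat.eq_of_beq_eq_true e]⟩
  have hpos : ∀ k, X.fused k → 0 < k := fun k hk => X.fused_pos hd hk
  have hin : ∀ k < 1024, (inO m k = true ↔ X.fused k) := fun k hk => by
    rcases Nat.eq_zero_or_pos k with rfl | h0
    · exact ⟨fun hh => by simp [inO] at hh, fun hh => absurd (hpos 0 hh) (lt_irrefl 0)⟩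
    · exact (hO k h0 hk).symm
  have hlin : ∀ r < 1024, inO m r = true → ∃ f : ℕ → ℕ, f 1 = r ∧ (∀ k < 1024, f k < 1024) ∧
      (∀ a < 1024, ∀ b < 1024, f (a ^^^ b) = f a ^^^ f b) ∧
      (∀ k < 1024, inO m k = true ↔ inO m (f k) = true) ∧
      (∀ s < 1024, ∃ k < 1024, f k = s) ∧ (∀ a < 1024, ∀ b < 1024, f a = f b → a = b) := by
    intro r hr hir
    obtain ⟨g, hgd, hgA⟩ := X.exists_normalize (x := X.inc (vH r)) (X.mem_AG.2 ⟨r, hr, rfl⟩)
      ((hin r hr).1 hir)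
    obtain ⟨f, hf, hx, hfu, hsur, hinj⟩ := X.exists_linear hgA
    refine ⟨f, X.inc_vH_inj (hf 1 (by norm_num)).1 hr ?_, fun k hk => (hf k hk).1, hx,
      fun k hk => (hin k hk).trans ((hfu k hk).trans (hin _ (hf k hk).1).symm), hsur, hinj⟩
    rw [← (hf 1 (by norm_num)).2, vH_one, X.inc_aH, hgd]
  by_contra hcon
  push Not at hcon
  by_cases h31 : m = 31
  · subst h31
    refine X.not_fused_sylow ((hin 802 (by norm_num)).1 ?_)
    have hs := sylow_check
    simp only [Bool.and_eq_true] at hs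
    exact hs.1.2
  by_cases h2 : m = 2
  · subst h2
    have h5 := five_check
    simp only [Bool.and_eq_true, Nat.beq_eq, List.all_eq_true, Bool.or_eq_true, Bool.not_eq_true',
      decide_eq_true_eq, ← Bool.not_eq_true] at h5
    obtain ⟨⟨⟨⟨⟨⟨⟨a3, a5⟩, a9⟩, a964⟩, a971⟩, ax⟩, a1⟩, hall⟩ := h5
    obtain ⟨f, hf1, hlt, hxor, hfin, hsur, hinj⟩ := hlin 3 (by norm_num) a3
    obtain ⟨u, hu, eu⟩ := hsur 5 (by norm_num)
    obtain ⟨w, hw, ew⟩ := hsur 9 (by norm_num)
    obtain ⟨x, hx, ex⟩ := hsur 964 (by norm_num)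
    have hy : (1 ^^^ u) ^^^ w ^^^ x < 1024 :=
      Nat.xor_lt_two_pow (n := 10) (Nat.xor_lt_two_pow (n := 10)
        (Nat.xor_lt_two_pow (n := 10) (by norm_num) hu) hw) hx
    have e1 : f ((1 ^^^ u) ^^^ w ^^^ x) = 971 := by
      have h1u : 1 ^^^ u < 1024 := Nat.xor_lt_two_pow (n := 10) (by norm_num) hu
      rw [hxor _ (Nat.xor_lt_two_pow (n := 10) h1u hw) x hx, hxor _ h1u w hw,
        hxor 1 (by norm_num) u hu, hf1, eu, ew, ex]
      decide
    have hmem : ∀ k v, k < 1024 → f k = v → inO 2 v = true → k ∈ olist 2 := fun k v hk e hv =>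
      mem_olist.2 ⟨hk, (hfin k hk).2 (by rw [e]; exact hv)⟩
    have key := hall u (hmem u 5 hu eu a5) w (hmem w 9 hw ew a9) x (hmem x 964 hx ex a964)
    change ((((((((((inO 2 ((1 ^^^ u) ^^^ w ^^^ x) ≠ true ∨ u = 1) ∨ w = 1) ∨ x = 1) ∨
      (1 ^^^ u) ^^^ w ^^^ x = 1) ∨ u = w) ∨ u = x) ∨ u = (1 ^^^ u) ^^^ w ^^^ x) ∨ w = x) ∨
      w = (1 ^^^ u) ^^^ w ^^^ x) ∨ x = (1 ^^^ u) ^^^ w ^^^ x) at key
    rcases key with (((((((((h | h) | h) | h) | h) | h) | h) | h) | h) | h) | h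
    · exact h ((hfin _ hy).2 (by rw [e1]; exact a971))
    all_goals have hh := congrArg f h
    all_goals simp only [hf1, eu, ew, ex, e1] at hh
    all_goals omega
  have hw := List.all_eq_true.1 wit_check m (List.mem_range.2 hm)
  simp only [Bool.or_eq_true, Nat.beq_eq, List.any_eq_true, Bool.and_eq_true, Bool.not_eq_true',
    ← Bool.not_eq_true, Nat.blt_eq] at hw
  obtain ⟨p, -, ⟨⟨-, hp1⟩, hp2⟩, hp3⟩ :=
    hw.resolve_left fun h => h.elim (fun h => h.elim (fun h => h.elim hcon.1 hcon.2) h2) h31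
  obtain ⟨f, hf1, hlt, hxor, hfin, hsur, hinj⟩ := hlin p.2 hp1 hp2
  refine hp3 ?_
  rw [cnt_eq_ncard, cnt_eq_ncard]
  refine Set.ncard_congr (fun u _ => f u) ?_ ?_ ?_
  · intro u ⟨hu, h1, h2⟩
    refine ⟨hlt u hu, (hfin u hu).1 h1, ?_⟩
    rw [← hf1, ← hxor 1 (by norm_num) u hu]
    exact (hfin _ (Nat.xor_lt_two_pow (n := 10) (by norm_num) hu)).1 h2
  · intro a b ha hb e
    exact hinj a ha.1 b hb.1 e
  · intro v ⟨hv, h1, h2⟩
    obtain ⟨u, hu, rfl⟩ := hsur v hv
    refine ⟨u, ⟨hu, (hfin u hu).2 h1, ?_⟩, rfl⟩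
    rw [hfin _ (Nat.xor_lt_two_pow (n := 10) (by norm_num) hu), hxor 1 (by norm_num) u hu, hf1]
    exact h2

/-- A conjugate of `d` commuting with it and different from it is a neighbour. -/
theorem Chart.fusion (hd : d ≠ 1) {y : G} (hy : IsConj d y) (hne : y ≠ d) (hc : Commute d y) :
    ((X.θ ⟨y, mem_cent_iff.2 hc⟩ : ↥Hs) : Spor.Fi22) ∈ nbr D22 U6.a0 := by
  have hdd : d * d = 1 := by
    rw [← X.inc_aH, ← map_mul, show aH * aH = 1 from Subtype.ext U6.a0_sq, map_one]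
  have hyy : y * y = 1 := by
    obtain ⟨g, rfl⟩ := isConj_iff.1 hy
    rw [show g * d * g⁻¹ * (g * d * g⁻¹) = g * (d * d) * g⁻¹ by group, hdd]
    group
  set t := X.θ ⟨y, mem_cent_iff.2 hc⟩ with ht
  have hty : X.inc t = y := congrArg Subtype.val (X.θ.symm_apply_apply _)
  have htt : t * t = 1 := X.inc_injective (by rw [map_mul, hty, hyy, map_one])
  obtain ⟨E, hEH, hEc, hEe, htE⟩ := inv_in_elem t.2 (congrArg Subtype.val htt)
  obtain ⟨c, hcH, hcE⟩ := elem_conj hEH hEe hEc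
  obtain ⟨n, hn, en⟩ := vfun_surj (show c * (t : Spor.Fi22) * c⁻¹ ∈ A22 from
    hcE ▸ ⟨(t : Spor.Fi22), htE, rfl⟩)
  have hnf : X.fused n := by
    refine hy.trans (isConj_iff.2 ⟨X.inc ⟨c, hcH⟩, ?_⟩)
    rw [← hty, ← map_mul, ← map_inv, ← map_mul]
    exact congrArg X.inc (Subtype.ext en.symm)
  obtain ⟨i, hi⟩ := X.fused_single hd hn hnf
  have hca : c * U6.a0 * c⁻¹ = U6.a0 := by rw [← U6.commute_of_mem hcH, mul_inv_cancel_right]
  have hti : (t : Spor.Fi22) = c⁻¹ * bm i * c := by rw [← hi, en]; group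
  refine ⟨hti ▸ ?_, fun e => hne ?_, U6.commute_of_mem t.2⟩
  · have := conj_mem_D22 c⁻¹ (mw_mem (aw i))
    rwa [inv_inv] at this
  · exact hty.symm.trans ((congrArg X.inc (Subtype.ext e : t = aH)).trans X.inc_aH)

end CfsgLib.FischerRecog58
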