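import Cfsg.Agent.FischerRecog58.AChecks
import Cfsg.Agent.FischerRecog58.SData

/-!
Checks for the indices of the common neighbours and their commutation.
-/

set_option autoImplicit false
set_option maxRecDepth 100000
set_option maxHeartbeats 8000000

namespace CfsgLib.FischerRecog58

open CfsgLib.CosetEnum CfsgLib.CosetEnum.Fi22

/-- The point of a member word. -/
noncomputable def wpt (v : List ℕ) : ℕ := runT Tab.perm.T Tab.perm.L v.reverse 0

/-- Whether the member of a word fixes a point. -/
noncomputable def fixesW (v : List ℕ) (i : ℕ) : Bool :=
  Nat.beq (runT Tab.perm.T Tab.perm.L (pword v) i) i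

/-- The point of an index. -/
noncomputable def rp (i : ℕ) : ℕ := SData.rpts.getD i 0

/-- The word of an index, the last one being the common neighbour. -/
def rw180 (i : ℕ) : List ℕ := SData.rwords.getD i SData.gW

/-- Commutation of two indices. -/
noncomputable def cbit (i j : ℕ) : Bool := (SData.cmask.getD i 0).testBit j

/-- The image of an index under a permutation. -/
def pimg (j i : ℕ) : ℕ := (SData.spermsN.getD j 0 >>> (8 * i)) % 256

/-- The third point in a derivation. -/
def dval (row : ℕ) (u w : ℕ) : ℕ := (row >>> (2 * (4 * u + w))) % 4

/-- The packed values of a section. -/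
def secCode (n : ℕ) : ℕ := SData.vtab.getD (n / 32) 0 >>> (96 * (n % 32))

/-- The value of a section on a fibre. -/
def secVal (n k : ℕ) : ℕ := (secCode n >>> (2 * k)) % 4

/-- The indices of a section code. -/
def secList (n : ℕ) : List ℕ := (List.range 45).map fun k => 4 * k + secVal n k

/-- The mask of a list. -/
def maskOf : List ℕ → ℕ
  | [] => 0
  | p :: l => maskOf l ||| 2 ^ p

/-- Whether the steps start from known codes and reach all of them. -/
def covered : List (ℕ × ℕ × ℕ) → ℕ → ℕ → Bool
  | [], known, full => Nat.beq known full
  | s :: t, known, full => known.testBit s.2.2 && covered t (known ||| 2 ^ s.1) full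

theorem rwords_check : (List.range 180).all (fun i =>
    (rw180 i).all (fun x => x.blt 9) && Nat.beq (wpt (rw180 i)) (rp i)) &&
    SData.gW.all (fun x => x.blt 9) && Nat.beq SData.rpts.length 180 &&
    Nat.beq SData.rwords.length 180 && decide SData.rpts.Nodup = true := by decide +kernel

theorem sperms_check : (List.range 7).all (fun j =>
    let v := pword (rw180 (SData.sgens.getD j 0))
    (List.range 180).all fun i => Nat.blt (pimg j i) 180 &&
      Nat.beq (runT Tab.perm.T Tab.perm.L v (rp i)) (rp (pimg j i))) &&
    (List.range 7).all (fun j => Nat.blt (SData.sgens.getD j 0) 180) = true := by decide +kernel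

end CfsgLib.FischerRecog58
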