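import Cfsg.Agent.FischerRecog58.SChecks

/-!
Checks: the common neighbours and their commutation masks.
-/

set_option autoImplicit false
set_option maxRecDepth 100000
set_option maxHeartbeats 8000000

namespace CfsgLib.FischerRecog58

open CfsgLib.CosetEnum CfsgLib.CosetEnum.Fi22

theorem rset_check : Nat.beq (maskOf SData.rpts) SData.rmask &&
    allBelow (fun i => (SData.rmask.testBit i) ==
      (!Nat.beq i 0 && !Nat.beq i (wpt SData.gW) && Nat.beq (runT Tab.perm.T Tab.perm.L [0] i) i &&
        fixesW SData.gW i)) 3510 = true := by decide +kernel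

theorem crow_check : [0, 56].all (fun r =>
    let v := rw180 r
    (List.range 180).all fun j => cbit r j == fixesW v (rp j)) = true := by decide +kernel

theorem cedge_check : SData.rsteps.all (fun s => Nat.blt s.1 180 && Nat.blt s.2.1 7 &&
    Nat.blt s.2.2 180 && (List.range 180).all fun l => cbit s.1 (pimg s.2.1 l) == cbit s.2.2 l) &&
    covered SData.rsteps (2 ^ 0 ||| 2 ^ 56) (2 ^ 180 - 1) = true := by decide +kernel

theorem pattern_check : (List.range 180).all (fun i =>
    Nat.beq (SData.cmask.getD i 0) (SData.cmask.getD (4 * (i / 4)) 0) &&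
      Nat.blt (SData.cmask.getD i 0) (2 ^ 180)) &&
    decide ((List.range 45).map fun k => SData.cmask.getD (4 * k) 0).Nodup = true := by
  decide +kernel

end CfsgLib.FischerRecog58
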