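import Cfsg.Agent.FischerRecog58.SChecksSec

/-!
Checks for the members outside: transitivity, the two orbits, a relation.
-/

set_option autoImplicit false
set_option maxRecDepth 100000
set_option maxHeartbeats 8000000

namespace CfsgLib.FischerRecog58

open CfsgLib.CosetEnum CfsgLib.CosetEnum.Fi22

/-- The index of a mover inside. -/
def ow (j : ℕ) : List ℕ := rw180 (SData.ogens.getD j 180)

theorem fars_check : Nat.beq (maskOf SData.fars) SData.fmask &&
    allBelow (fun i => (SData.fmask.testBit i) ==
    (Nat.beq (runT Tab.perm.T Tab.perm.L [0] i) i && !fixesW SData.gW i)) 3510 &&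
    SData.q0W.all (fun x => x.blt 9) && Nat.beq (SData.fars.getD 0 0) (wpt SData.q0W) &&
    SData.fgens.all (fun v => v.all fun x => x.blt 9) &&
    SData.fgens.all (fun v => Nat.beq (runT Tab.perm.T Tab.perm.L (pword v) 0) 0 &&
      Nat.beq (runT Tab.perm.T Tab.perm.L (pword v) (wpt SData.gW)) (wpt SData.gW)) &&
    Nat.beq SData.fars.length 512 && Nat.beq SData.fsteps.length 511 &&
    (List.range 511).all (fun n =>
      let s := SData.fsteps.getD n (0, 0)
      Nat.blt s.1 SData.fgens.length && s.2.ble n &&
      Nat.beq (runT Tab.perm.T Tab.perm.L (pword (SData.fgens.getD s.1 [])) (SData.fars.getD s.2 0))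
        (SData.fars.getD (n + 1) 0)) = true := by decide +kernel

theorem q0_check : (List.range 45).all (fun k =>
    Nat.beq (((List.range 4).filter fun u => fixesW SData.q0W (rp (4 * k + u))).length) 1) = true := by
  decide +kernel

theorem outer_check : (List.range 512).all (fun n =>
      let s := SData.osteps.getD n (0, 0)
      Nat.beq n 0 || Nat.beq n 80 || (Nat.blt s.1 7 && Nat.blt s.2 n &&
        (if Nat.blt n 80 then Nat.blt s.2 80 else !Nat.blt s.2 80) &&
        Nat.beq (runT Tab.perm.T Tab.perm.L (pword (ow s.1)) (SData.opts.getD s.2 0))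
          (SData.opts.getD n 0))) &&
    (List.range 7).all (fun j => Nat.beq (SData.ogens.getD j 180) 180 ||
      (secList SData.n0).contains (SData.ogens.getD j 180)) &&
    Nat.beq (maskOf SData.opts) SData.fmask && Nat.beq SData.opts.length 512 &&
    (List.range 80).all (fun n => fixesW [0, 1] (SData.opts.getD n 0)) &&
    (List.range 432).all (fun n => !fixesW [0, 1] (SData.opts.getD (80 + n) 0)) = true := by
  decide +kernel

theorem four_check : same5 ((SData.four.map pword).flatten) ([0] ++ pword (SData.owords.getD 2 [])) &&
    SData.four.all (fun v => v.all fun x => x.blt 9) &&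
    SData.owords.all (fun v => v.all fun x => x.blt 9) &&
    Nat.beq SData.four.length 4 && Nat.beq SData.fourPts.length 4 &&
    (List.range 4).all (fun j => Nat.beq (wpt (SData.four.getD j [])) (SData.fourPts.getD j 0) &&
      ((List.range 432).any (fun n => Nat.beq (SData.opts.getD (80 + n) 0) (SData.fourPts.getD j 0)) ||
        (secList SData.n0).any (fun i => Nat.beq (rp i) (SData.fourPts.getD j 0)))) &&
    Nat.beq (runT Tab.perm.T Tab.perm.L [0] (wpt (SData.owords.getD 2 [])))
      (wpt (SData.owords.getD 2 [])) && !fixesW SData.gW (wpt (SData.owords.getD 2 [])) = true := by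
  decide +kernel

end CfsgLib.FischerRecog58
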