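import Cfsg.Agent.FischerRecog58.SChecks

/-!
Checks: the sections and their orbits.
-/

set_option autoImplicit false
set_option maxRecDepth 100000
set_option maxHeartbeats 8000000

namespace CfsgLib.FischerRecog58

open CfsgLib.CosetEnum CfsgLib.CosetEnum.Fi22

/-- Whether the derivations start from known fibres and reach all of them. -/
def covered2 : List ((ℕ × ℕ × ℕ) × ℕ) → ℕ → ℕ → Bool
  | [], known, full => Nat.beq known full
  | s :: t, known, full =>
    known.testBit s.1.2.1 && known.testBit s.1.2.2 && covered2 t (known ||| 2 ^ s.1.1) full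

theorem derive_check : (List.zip SData.dsteps SData.dtabN).all (fun st =>
    (List.range 4).all fun u => (List.range 4).all fun w =>
      !cbit (4 * st.1.2.1 + u) (4 * st.1.2.2 + w) &&
        Nat.beq (runT Tab.perm.T Tab.perm.L (pword (rw180 (4 * st.1.2.1 + u))) (rp (4 * st.1.2.2 + w)))
          (rp (4 * st.1.1 + dval st.2 u w))) &&
    decide (SData.base.length = 5 ∧ SData.dsteps.length = SData.dtabN.length) &&
    SData.base.all (fun b => Nat.blt b 45) &&
    covered2 (List.zip SData.dsteps SData.dtabN) (maskOf SData.base) (2 ^ 45 - 1) &&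
    SData.dsteps.all (fun s => Nat.blt s.1 45 && Nat.blt s.2.1 45 && Nat.blt s.2.2 45) = true := by
  decide +kernel

theorem secval_check : (List.range 1024).all (fun n =>
    (List.range 5).all (fun j => Nat.beq (secVal n (SData.base.getD j 0)) (n / 4 ^ j % 4)) &&
    (List.zip SData.dsteps SData.dtabN).all fun st =>
      Nat.beq (secVal n st.1.1) (dval st.2 (secVal n st.1.2.1) (secVal n st.1.2.2))) = true := by
  decide +kernel

theorem sorbit_check : SData.ssteps.all (fun s => Nat.blt s.1 1024 && Nat.blt s.2.1 7 &&
    Nat.blt s.2.2 1024 &&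
    (List.range 45).all fun k =>
      let i := pimg s.2.1 (4 * k + secVal s.2.2 k)
      Nat.beq (secVal s.1 (i / 4)) (i % 4)) &&
    covered SData.ssteps (maskOf SData.sreps) (2 ^ 1024 - 1) &&
    decide (SData.sreps.head? = some SData.n0 ∧ SData.sreps.length = 4) = true := by decide +kernel

theorem bad_check : (List.range 3).all (fun r =>
    let S := secList (SData.sreps.getD (r + 1) 0)
    let ws := SData.badWords.getD r []
    ws.all (fun i => Nat.beq i 180 || S.contains i) &&
      same5 ((ws.map fun i => pword (rw180 i)).flatten) [0]) = true := by decide +kernel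

theorem n0_check : (List.range 180).all (fun i =>
    ((secList SData.n0).contains i) == fixesW [0, 1] (rp i)) && fixesW [0, 1] (wpt SData.gW) &&
    (secList SData.n0).all (fun i =>
      Nat.beq (((secList SData.n0).filter fun j => !Nat.beq i j && cbit i j).length) 12) = true := by
  decide +kernel

end CfsgLib.FischerRecog58
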