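import Cfsg.Agent.FischerRecog58.Charts
import Cfsg.Agent.FischerRecog58.SChecksComm
import Cfsg.Agent.FischerRecog58.SChecksOut
import Cfsg.Agent.FischerRecog58.RModel

/-!
Sections: for a member `a`, a neighbour `x` and a neighbour `c` of `x` far from `a`, some chart at
`a` makes the common neighbours at `x` those of the model.
-/

set_option autoImplicit false
set_option maxRecDepth 100000

namespace CfsgLib.FischerRecog58

open Cfsg CfsgLib.ThreeTransp CfsgLib.CosetEnum CfsgLib.CosetEnum.Fi22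

universe u

theorem testBit_maskOf : ∀ (l : List ℕ) (i : ℕ), (maskOf l).testBit i = true ↔ i ∈ l
  | [], i => by simp [maskOf]
  | p :: l, i => by
    simp only [maskOf, Nat.testBit_or, Bool.or_eq_true, testBit_maskOf l i, Nat.testBit_two_pow,
      decide_eq_true_eq, List.mem_cons]
    exact ⟨fun h => h.symm.imp (fun e => e.symm) id, fun h => h.symm.imp id fun e => e.symm⟩

theorem covered_sound {P : ℕ → Prop} : ∀ (l : List (ℕ × ℕ × ℕ)) (known full : ℕ),
    covered l known full = true → (∀ n, known.testBit n = true → P n) →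
    (∀ s ∈ l, P s.2.2 → P s.1) → ∀ n, full.testBit n = true → P n
  | [], known, full, h, hk, _, n, hn => hk n (by
    simp only [covered, Nat.beq_eq] at h
    rwa [h])
  | s :: t, known, full, h, hk, hs, n, hn => by
    simp only [covered, Bool.and_eq_true] at h
    refine covered_sound t _ full h.2 (fun m hm => ?_) (fun r hr => hs r (List.mem_cons_of_mem _ hr)) n hn
    simp only [Nat.testBit_or, Bool.or_eq_true, Nat.testBit_two_pow, decide_eq_true_eq] at hm
    rcases hm with hm | rfl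
    · exact hk m hm
    · exact hs s List.mem_cons_self (hk _ h.1)

theorem pword_lt {v : List ℕ} (hv : ∀ x ∈ v, x < 9) : ∀ x ∈ pword v, x < 9 := palW_lt hv

theorem fixesW_iff {v : List ℕ} (hv : ∀ x ∈ v, x < 9) (y : D22) :
    fixesW v (memPt y) = true ↔ Commute (mw v) (y : Spor.Fi22) := by
  rw [commute_iff_fix, Fin.ext_iff, pi_mw_val v hv]
  simp only [fixesW, Nat.beq_eq]
  rfl

theorem fix0_iff (y : D22) :
    runT Tab.perm.T Tab.perm.L [0] (memPt y) = (memPt y : ℕ) ↔ Commute U6.a0 (y : Spor.Fi22) := by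
  rw [commute_iff_fix, Fin.ext_iff, pi_a0_val]

theorem eq_of_pt {y z : D22} (h : (memPt y : ℕ) = memPt z) : (y : Spor.Fi22) = z :=
  congrArg Subtype.val (memPt_injective (Fin.ext h))

theorem pt_mw {v : List ℕ} (hv : ∀ x ∈ v, x < 9) : (memPt ⟨mw v, mw_mem v⟩ : ℕ) = wpt v :=
  memPt_mw v hv

theorem gW_lt : ∀ x ∈ SData.gW, x < 9 := by decide

theorem q0W_lt : ∀ x ∈ SData.q0W, x < 9 := by decide

/-- The marked neighbour. -/
noncomputable def gM : Spor.Fi22 := mw SData.gW

/-- The marked far member. -/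
noncomputable def qM : Spor.Fi22 := mw SData.q0W

theorem rw_lt (i : ℕ) : ∀ x ∈ rw180 i, x < 9 := by
  by_cases hi : i < 180
  · have h := rwords_check
    simp only [Bool.and_eq_true, List.all_eq_true, List.mem_range, decide_eq_true_eq,
      Nat.blt, Nat.ble_eq] at h
    exact (h.1.1.1.1 i hi).1
  · have e : rw180 i = SData.gW := List.getD_eq_default _ _ (by
      have h := rwords_check
      simp only [Bool.and_eq_true, decide_eq_true_eq, Nat.beq_eq] at h
      omega)
    rw [e]; exact gW_lt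

/-- The member of an index. -/
noncomputable def rM (i : ℕ) : Spor.Fi22 := mw (rw180 i)

theorem rM_gM {i : ℕ} (hi : 180 ≤ i) : rM i = gM := by
  rw [rM, gM]
  congr 1
  exact List.getD_eq_default _ _ (by
    have h := rwords_check
    simp only [Bool.and_eq_true, decide_eq_true_eq, Nat.beq_eq] at h
    omega)

theorem rM_pt {i : ℕ} (hi : i < 180) : (memPt ⟨rM i, mw_mem _⟩ : ℕ) = rp i := by
  rw [show (⟨rM i, mw_mem _⟩ : D22) = ⟨mw (rw180 i), mw_mem _⟩ from rfl, pt_mw (rw_lt i)]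
  have h := rwords_check
  simp only [Bool.and_eq_true, List.all_eq_true, List.mem_range, decide_eq_true_eq, Nat.beq_eq] at h
  exact (h.1.1.1.1 i hi).2

theorem gM_nbr : gM ∈ nbr D22 U6.a0 := by
  have h : Nat.beq (runT Tab.perm.T Tab.perm.L [0] (wpt SData.gW)) (wpt SData.gW) &&
      !Nat.beq (wpt SData.gW) 0 = true := by decide +kernel
  simp only [Bool.and_eq_true, Bool.not_eq_true', decide_eq_true_eq, Nat.beq_eq,
    ← Bool.not_eq_true] at h
  refine ⟨mw_mem _, fun e => h.2 ?_, ?_⟩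
  · rw [← pt_mw gW_lt]
    exact (memPt_eq_zero_iff ⟨mw SData.gW, mw_mem _⟩).2 e
  · rw [← fix0_iff ⟨gM, mw_mem _⟩, show (⟨gM, mw_mem _⟩ : D22) = ⟨mw SData.gW, mw_mem _⟩ from rfl,
      pt_mw gW_lt]
    exact h.1

theorem mem_R_iff (y : D22) :
    ((y : Spor.Fi22) ∈ nbr D22 U6.a0 ∧ (y : Spor.Fi22) ∈ nbr D22 gM) ↔
      (memPt y : ℕ) ∈ SData.rpts := by
  have hk := rset_check
  simp only [Bool.and_eq_true, Nat.beq_eq, decide_eq_true_eq] at hk
  have hc := (Model.allBelow_iff _ _).1 hk.2 (memPt y) (memPt y).2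
  simp only [beq_iff_eq] at hc
  have h3 : (y : Spor.Fi22) = gM ↔ (memPt y : ℕ) = wpt SData.gW := by
    constructor
    · intro e
      rw [← pt_mw gW_lt, show y = ⟨mw SData.gW, mw_mem _⟩ from Subtype.ext e]
    · exact fun e => eq_of_pt (z := ⟨mw SData.gW, mw_mem _⟩) (e.trans (pt_mw gW_lt).symm)
  rw [← testBit_maskOf, hk.1, hc]
  simp only [nbr, Set.mem_ofPred_eq, Bool.and_eq_true, Bool.not_eq_true', ← Bool.not_eq_true,
    Nat.beq_eq, fix0_iff, fixesW_iff gW_lt, ne_eq, ← memPt_eq_zero_iff, h3]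
  exact ⟨fun h => ⟨⟨⟨h.1.2.1, h.2.2.1⟩, (fix0_iff y).2 h.1.2.2⟩, h.2.2.2⟩,
    fun h => ⟨⟨y.2, h.1.1.1, (fix0_iff y).1 h.1.2⟩, y.2, h.1.1.2, h.2⟩⟩

theorem rpts_len : SData.rpts.length = 180 := by
  have h := rwords_check
  simp only [Bool.and_eq_true, decide_eq_true_eq, Nat.beq_eq] at h
  exact h.1.1.2

theorem rM_R {i : ℕ} (hi : i < 180) : rM i ∈ nbr D22 U6.a0 ∧ rM i ∈ nbr D22 gM := by
  refine (mem_R_iff ⟨rM i, mw_mem _⟩).2 ?_
  rw [rM_pt hi, rp, List.getD_eq_getElem _ _ (rpts_len.symm ▸ hi : i < SData.rpts.length)]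
  exact List.getElem_mem _

theorem R_exists {y : Spor.Fi22} (h1 : y ∈ nbr D22 U6.a0) (h2 : y ∈ nbr D22 gM) :
    ∃ i < 180, rM i = y := by
  obtain ⟨i, hi, e⟩ := List.mem_iff_getElem.1 ((mem_R_iff ⟨y, h1.1⟩).1 ⟨h1, h2⟩)
  refine ⟨i, rpts_len ▸ hi, eq_of_pt (y := ⟨rM i, mw_mem _⟩) (z := ⟨y, h1.1⟩) ?_⟩
  rw [rM_pt (rpts_len ▸ hi), rp, List.getD_eq_getElem _ _ hi, e]

theorem rM_inj {i j : ℕ} (hi : i < 180) (hj : j < 180) (h : rM i = rM j) : i = j := by
  have e : (memPt ⟨rM i, mw_mem _⟩ : ℕ) = memPt ⟨rM j, mw_mem _⟩ := by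
    rw [show (⟨rM i, mw_mem _⟩ : D22) = ⟨rM j, mw_mem _⟩ from Subtype.ext h]
  have hn := rwords_check
  simp only [Bool.and_eq_true, decide_eq_true_eq] at hn
  rw [rM_pt hi, rM_pt hj, rp, rp, List.getD_eq_getElem _ _ (rpts_len.symm ▸ hi : i < SData.rpts.length),
    List.getD_eq_getElem _ _ (rpts_len.symm ▸ hj : j < SData.rpts.length)] at e
  exact (hn.2.getElem_inj_iff).1 e

theorem perm_spec {g i : ℕ} (hg : g < 7) (hi : i < 180) :
    pimg g i < 180 ∧ SData.sgens.getD g 0 < 180 ∧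
      rM (pimg g i) = rM (SData.sgens.getD g 0) * rM i * (rM (SData.sgens.getD g 0))⁻¹ := by
  have h := sperms_check
  simp only [Bool.and_eq_true, List.all_eq_true, List.mem_range, decide_eq_true_eq, Nat.beq_eq,
    Nat.blt, Nat.ble_eq] at h
  obtain ⟨h1, h2⟩ := h.1 g hg i hi
  refine ⟨h1, h.2 g hg, ?_⟩
  refine eq_of_pt (y := ⟨rM (pimg g i), mw_mem _⟩)
    (z := ⟨rM (SData.sgens.getD g 0) * rM i * (rM (SData.sgens.getD g 0))⁻¹, conj_mem_D22 _ (mw_mem _)⟩) ?_
  rw [rM_pt h1, memPt_equivariant (rM (SData.sgens.getD g 0)) ⟨rM i, mw_mem _⟩]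
  refine Eq.trans ?_ (pi_mw_val _ (rw_lt _) _).symm
  rw [rM_pt hi]
  exact h2.symm

theorem perm_perm {g i : ℕ} (hg : g < 7) (hi : i < 180) : pimg g (pimg g i) = i := by
  obtain ⟨h1, hs, e1⟩ := perm_spec hg hi
  obtain ⟨h2, -, e2⟩ := perm_spec hg h1
  have hinv : (rM (SData.sgens.getD g 0))⁻¹ = rM (SData.sgens.getD g 0) := tt_inv set22 (mw_mem _)
  refine rM_inj h2 hi ?_
  rw [e2, e1, hinv]
  have hsq := tt_mul_self set22 (mw_mem (rw180 (SData.sgens.getD g 0)))
  calc _ = (rM (SData.sgens.getD g 0) * rM (SData.sgens.getD g 0)) * rM i *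
      (rM (SData.sgens.getD g 0) * rM (SData.sgens.getD g 0)) := by group
    _ = rM i := by rw [rM, hsq]; group

theorem cbit_iff {i j : ℕ} (hi : i < 180) (hj : j < 180) :
    cbit i j = true ↔ Commute (rM i) (rM j) := by
  have h := cedge_check
  simp only [Bool.and_eq_true, List.all_eq_true, List.mem_range, Nat.blt, Nat.ble_eq, beq_iff_eq,
    decide_eq_true_eq] at h
  refine covered_sound (P := fun i => i < 180 → ∀ j < 180, (cbit i j = true ↔ Commute (rM i) (rM j)))
    _ _ _ h.2 ?_ ?_ i ?_ hi j hj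
  · intro n hn _ j hj
    have hn' : n ∈ [0, 56] := by
      rw [Nat.testBit_or, Bool.or_eq_true, Nat.testBit_two_pow, Nat.testBit_two_pow,
        decide_eq_true_eq, decide_eq_true_eq] at hn
      rcases hn with rfl | rfl <;> simp
    have hc := crow_check
    simp only [List.all_eq_true, List.mem_range, beq_iff_eq] at hc
    rw [hc n hn' j hj, ← rM_pt hj]
    exact fixesW_iff (rw_lt n) _
  · intro s hs hP hs1 j hj
    obtain ⟨⟨⟨-, hg⟩, hp⟩, hbits⟩ := h.1 s hs
    obtain ⟨hl, -, ej⟩ := perm_spec hg hj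
    have e := hbits _ hl
    rw [perm_perm hg hj] at e
    rw [e, hP hp _ hl]
    obtain ⟨hq, hgl, eq⟩ := perm_spec hg hp
    obtain ⟨hl', -, el⟩ := perm_spec hg hl
    rw [perm_perm hg hj] at el
    have hq' : pimg s.2.1 s.2.2 = s.1 := hsn s hs
    rw [← hq', eq, el]
    exact (Commute.conj_iff _).symm
  · rw [Nat.testBit_two_pow_sub_one]; exact decide_eq_true hi
where
  hsn : ∀ s ∈ SData.rsteps, pimg s.2.1 s.2.2 = s.1 := by decide +kernel

theorem rM_Hs (i : ℕ) : rM i ∈ Hs := by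
  by_cases hi : i < 180
  · exact U6.mem_Hs_of_commute (rM_R hi).1.2.2
  · rw [rM_gM (not_lt.1 hi)]; exact U6.mem_Hs_of_commute gM_nbr.2.2

/-- The member of an index, in the centralizer. -/
noncomputable def rH (i : ℕ) : ↥Hs := ⟨rM i, rM_Hs i⟩

theorem fibre_iff {i j : ℕ} (hi : i < 180) (hj : j < 180) :
    i / 4 = j / 4 ↔ ∀ l < 180, cbit i l = cbit j l := by
  have h := pattern_check
  simp only [Bool.and_eq_true, List.all_eq_true, List.mem_range, decide_eq_true_eq, Nat.beq_eq,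
    Nat.blt, Nat.ble_eq] at h
  constructor
  · intro he l _
    simp only [cbit]
    rw [(h.1 i hi).1, (h.1 j hj).1, he]
  · intro he
    have hm : SData.cmask.getD i 0 = SData.cmask.getD j 0 := by
      refine Nat.eq_of_testBit_eq fun l => ?_
      by_cases hl : l < 180
      · exact he l hl
      · have h1 : SData.cmask.getD i 0 < 2 ^ l :=
          lt_of_lt_of_le (h.1 i hi).2 (Nat.pow_le_pow_right (by norm_num) (not_lt.1 hl))
        have h2 : SData.cmask.getD j 0 < 2 ^ l :=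
          lt_of_lt_of_le (h.1 j hj).2 (Nat.pow_le_pow_right (by norm_num) (not_lt.1 hl))
        rw [Nat.testBit_lt_two_pow h1, Nat.testBit_lt_two_pow h2]
    rw [(h.1 i hi).1, (h.1 j hj).1] at hm
    exact List.inj_on_of_nodup_map h.2 (List.mem_range.2 (by omega)) (List.mem_range.2 (by omega)) hm

theorem fars_conj {y : D22} (hy : (y : Spor.Fi22) ∈ nbr D22 U6.a0)
    (hn : ¬ Commute gM (y : Spor.Fi22)) :
    ∃ h : Spor.Fi22, h * U6.a0 * h⁻¹ = U6.a0 ∧ h * gM * h⁻¹ = gM ∧ h * y * h⁻¹ = qM := by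
  have hc := fars_check
  simp only [Bool.and_eq_true, List.all_eq_true, List.mem_range, decide_eq_true_eq, Nat.beq_eq,
    Nat.blt, Nat.ble_eq, beq_iff_eq] at hc
  obtain ⟨⟨⟨⟨⟨⟨⟨⟨hmask, hall⟩, -⟩, h0⟩, hlt⟩, hfix⟩, hlen⟩, -⟩, hst⟩ := hc
  have hmem : (memPt y : ℕ) ∈ SData.fars := by
    have := (Model.allBelow_iff _ _).1 hall (memPt y) (memPt y).2
    simp only [beq_iff_eq] at this
    rw [← testBit_maskOf, hmask, this]
    simp only [Bool.and_eq_true, Nat.beq_eq, Bool.not_eq_true', ← Bool.not_eq_true, fix0_iff,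
      fixesW_iff gW_lt]
    exact ⟨(fix0_iff y).2 hy.2.2, hn⟩
  obtain ⟨n, hn', e⟩ := List.mem_iff_getElem.1 hmem
  rw [hlen] at hn'
  suffices key : ∀ n, n < 512 → ∀ y : D22, (memPt y : ℕ) = SData.fars.getD n 0 →
      ∃ h : Spor.Fi22, h * U6.a0 * h⁻¹ = U6.a0 ∧ h * gM * h⁻¹ = gM ∧ h * y * h⁻¹ = qM from
    key n hn' y (by rw [List.getD_eq_getElem _ _ (hlen.symm ▸ hn' : n < SData.fars.length), e])
  intro n
  induction n using Nat.strong_induction_on with
  | _ n ih =>
    intro hn y hy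
    rcases Nat.eq_zero_or_pos n with rfl | hpos
    · refine ⟨1, by group, by group, ?_⟩
      rw [one_mul, inv_one, mul_one]
      exact eq_of_pt (z := ⟨mw SData.q0W, mw_mem _⟩) (by rw [hy, h0, pt_mw q0W_lt])
    · obtain ⟨m, rfl⟩ : ∃ m, n = m + 1 := ⟨n - 1, by omega⟩
      obtain ⟨⟨s1, s2⟩, s3⟩ := hst m (by omega)
      set s := SData.fsteps.getD m (0, 0)
      set v := SData.fgens.getD s.1 [] with hv
      have hvm : v ∈ SData.fgens := by
        rw [hv, List.getD_eq_getElem _ _ s1]; exact List.getElem_mem _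
      have hvl : ∀ x ∈ v, x < 9 := fun x hx => hlt v hvm x hx
      have g0 : Commute (mw v) U6.a0 := by
        refine Commute.symm (U6.commute_of_mem ((mem_Hs_iff _).2 (Fin.ext ?_)))
        rw [pi_mw_val v hvl]
        exact (hfix v hvm).1
      have gg : Commute (mw v) gM := by
        rw [show gM = mw SData.gW from rfl, ← fixesW_iff hvl ⟨mw SData.gW, mw_mem _⟩, pt_mw gW_lt,
          fixesW, Nat.beq_eq]
        exact (hfix v hvm).2
      have hinv : (mw v)⁻¹ = mw v := tt_inv set22 (mw_mem v)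
      obtain ⟨h, k1, k2, k3⟩ := ih s.2 (by omega) (by omega) ⟨_, conj_mem_D22 (mw v) y.2⟩ (by
        rw [memPt_equivariant, pi_mw_val v hvl, hy, ← s3]
        have : ∀ i, runT Tab.perm.T Tab.perm.L (palW v) (runT Tab.perm.T Tab.perm.L (pword v) i) =
            runT Tab.perm.T Tab.perm.L (palW v ++ pword v) i → True := fun _ _ => trivial
        have hi : SData.fars.getD s.2 0 < 3510 := by
          have hs : s.2 < SData.fars.length := by omega
          rw [List.getD_eq_getElem _ _ hs]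
          have hm := List.getElem_mem hs
          by_contra hge
          have hb := fars_bound _ hm
          omega
        have hp := congrArg (fun p => (p : Fin Tab.perm.n).val)
          (show pi (mw v) (pi (mw v) ⟨_, hi⟩) = (⟨_, hi⟩ : Fin Tab.perm.n) by
            rw [← Equiv.Perm.mul_apply, ← map_mul, tt_mul_self set22 (mw_mem v), map_one,
              Equiv.Perm.one_apply])
        simp only [pi_mw_val v hvl] at hp
        exact hp)
      refine ⟨h * mw v, ?_, ?_, ?_⟩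
      · calc _ = h * (mw v * U6.a0 * (mw v)⁻¹) * h⁻¹ := by group
          _ = _ := by rw [g0.eq, mul_inv_cancel_right, k1]
      · calc _ = h * (mw v * gM * (mw v)⁻¹) * h⁻¹ := by group
          _ = _ := by rw [gg.eq, mul_inv_cancel_right, k2]
      · calc _ = h * (mw v * y * (mw v)⁻¹) * h⁻¹ := by group
          _ = _ := k3
where
  fars_bound : ∀ i ∈ SData.fars, i < 3510 := by decide +kernel

variable {G : Type u} [Group G] [Finite G] {d : G}

theorem list_prod_commute {c : G} {l : List G} (h : ∀ x ∈ l, Commute c x) : Commute c l.prod :=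
  Commute.list_prod_right l c h

/-- The indices commuting with an element, for a chart. -/
def Chart.Sec {a : G} (X : Chart a) (c : G) (i : ℕ) : Prop := i < 180 ∧ Commute c (X.inc (rH i))

/-- The configuration: a member, a neighbour, and a neighbour of that far from the member. -/
structure Conf (d a x c : G) : Prop where
  ha : a ∈ conjugatesOf d
  hx : x ∈ nbr (conjugatesOf d) a
  hc : c ∈ nbr (conjugatesOf d) x
  far : ¬ Commute a c

theorem sec_unique (H : Hyp d) {a x c : G} (K : Conf d a x c) (X : Chart a)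
    (hX : X.inc (nH gM gM_nbr) = x) (k : ℕ) (hk : k < 45) :
    ∃ u < 4, X.Sec c (4 * k + u) ∧ ∀ w < 4, X.Sec c (4 * k + w) → w = u := by
  have := finite_fi22
  obtain ⟨Y, hY⟩ := exists_chart_at H K.hx.1 (x := a)
    ⟨K.ha, K.hx.2.1.symm, K.hx.2.2.symm⟩ gM_nbr
  obtain ⟨s, hs, hse⟩ := (Y.nbr_iff (H.at K.hx.1)).1 (by rw [class_eq K.hx.1]; exact K.hc)
  have hsn : ¬ Commute gM s := fun h => K.far (by
    rw [← hY, ← hse, Y.commute_inc]; exact h)
  obtain ⟨h, h0, hg, hq⟩ := fars_conj (y := ⟨s, hs.1⟩) hs hsn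
  have hh : h ∈ Hs := U6.mem_Hs_of_commute (mul_inv_eq_iff_eq_mul.1 h0).symm
  set Z := Y.twist ⟨h, hh⟩ with hZ
  have hZa : Z.inc (nH gM gM_nbr) = a := by
    rw [hZ, Y.twist_inc, ← hY]
    refine congrArg Y.inc (Subtype.ext ?_)
    show h⁻¹ * gM * h = gM
    nth_rewrite 1 [← hg]
    group
  have hqH : qM ∈ nbr D22 U6.a0 := by
    have e := nbr_conj ttg22 h hs
    rw [h0] at e
    exact hq ▸ e
  have hZc : Z.inc (nH qM hqH) = c := by
    rw [hZ, Y.twist_inc, ← hse]
    refine congrArg Y.inc (Subtype.ext ?_)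
    show h⁻¹ * qM * h = s
    rw [← hq]
    group
  -- the bijection of indices between the two charts
  have hphi : ∀ i, ∃ j, i < 180 → j < 180 ∧ X.inc (rH i) = Z.inc (rH j) := by
    intro i
    by_cases hi : i < 180
    swap
    · exact ⟨0, fun h => absurd h hi⟩
    obtain ⟨h1, h2⟩ := rM_R hi
    have hm := X.inc_mem (H.at K.ha) (t := rH i) h1
    rw [class_eq K.ha] at hm
    have hne : X.inc (rH i) ≠ x := fun e => h2.2.1 (congrArg Subtype.val
      (X.inc_injective (e.trans hX.symm)))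
    have hcx : Commute x (X.inc (rH i)) := by rw [← hX, X.commute_inc]; exact h2.2.2
    obtain ⟨t, ht, hte⟩ := (Z.nbr_iff (H.at K.hx.1)).1 (by
      rw [class_eq K.hx.1]; exact ⟨hm.1, hne, hcx⟩ :
        X.inc (rH i) ∈ nbr (conjugatesOf x) x)
    have htg : t ∈ nbr D22 gM := by
      refine ⟨ht.1, fun e => hm.2.1 ?_, ?_⟩
      · rw [← hte, ← hZa]
        exact congrArg Z.inc (Subtype.ext e)
      · have := hm.2.2
        rw [← hte, ← hZa, Z.commute_inc] at this
        exact this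
    obtain ⟨j, hj, e⟩ := R_exists ht htg
    exact ⟨j, fun _ => ⟨hj, by rw [← hte]; exact congrArg Z.inc (Subtype.ext e.symm)⟩⟩
  choose φ hφ using hphi
  have hφi : ∀ i < 180, ∀ j < 180, φ i = φ j → i = j := fun i hi j hj e => by
    have h1 := (hφ i hi).2
    rw [e, ← (hφ j hj).2] at h1
    exact rM_inj hi hj (congrArg Subtype.val (X.inc_injective h1))
  have hφs : ∀ j < 180, ∃ i < 180, φ i = j := fun j hj => by
    have hb : Function.Bijective (fun i : Fin 180 => (⟨φ i, (hφ i i.2).1⟩ : Fin 180)) :=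
      Finite.injective_iff_bijective.1 fun i j e =>
        Fin.ext (hφi i i.2 j j.2 (congrArg Fin.val e))
    obtain ⟨i, hi⟩ := hb.2 ⟨j, hj⟩
    exact ⟨i, i.2, congrArg Fin.val hi⟩
  have hφc : ∀ i < 180, ∀ j < 180, cbit i j = cbit (φ i) (φ j) := fun i hi j hj =>
    Bool.eq_iff_iff.2 (by
      rw [cbit_iff hi hj, cbit_iff (hφ i hi).1 (hφ j hj).1]
      have h1 := X.commute_inc (s := rH i) (t := rH j)
      rw [(hφ i hi).2, (hφ j hj).2, Z.commute_inc] at h1
      exact h1.symm)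
  have hfib : ∀ i < 180, ∀ j < 180, (i / 4 = j / 4 ↔ φ i / 4 = φ j / 4) := fun i hi j hj => by
    rw [fibre_iff hi hj, fibre_iff (hφ i hi).1 (hφ j hj).1]
    constructor
    · intro h l hl
      obtain ⟨l, hl', rfl⟩ := hφs l hl
      rw [← hφc i hi l hl', ← hφc j hj l hl', h l hl']
    · intro h l hl
      rw [hφc i hi l hl, hφc j hj l hl, h _ (hφ l hl).1]
  have hsec : ∀ i < 180, (X.Sec c i ↔ fixesW SData.q0W (rp (φ i)) = true) := fun i hi => by
    rw [← rM_pt (hφ i hi).1, fixesW_iff q0W_lt, Chart.Sec, (hφ i hi).2, ← hZc, Z.commute_inc]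
    exact and_iff_right hi
  have hlt : 4 * k < 180 := by omega
  have hq0 := q0_check
  simp only [List.all_eq_true, List.mem_range, Nat.beq_eq] at hq0
  obtain ⟨u0, hu0⟩ := List.length_eq_one_iff.1 (hq0 (φ (4 * k) / 4) (by
    have := (hφ _ hlt).1; omega))
  have hu0' : ∀ u, (u < 4 ∧ fixesW SData.q0W (rp (4 * (φ (4 * k) / 4) + u)) = true) ↔ u = u0 :=
    fun u => by
      have := congrArg (fun L => u ∈ L) hu0
      simpa using this
  obtain ⟨hu4, hufix⟩ := (hu0' u0).2 rfl
  obtain ⟨i, hi, hie⟩ := hφs (4 * (φ (4 * k) / 4) + u0) (by have := (hφ _ hlt).1; omega)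
  have hik : i / 4 = k := by
    have := (hfib i hi (4 * k) hlt).2 (by rw [hie]; omega)
    omega
  refine ⟨i % 4, Nat.mod_lt _ (by norm_num), ?_, fun w hw hsw => ?_⟩
  · rw [show 4 * k + i % 4 = i by omega, hsec i hi, hie]
    exact hufix
  · have hwl : 4 * k + w < 180 := by omega
    have he : φ (4 * k + w) / 4 = φ (4 * k) / 4 := (hfib _ hwl _ hlt).1 (by omega)
    have h1 := (hu0' (φ (4 * k + w) % 4)).1 ⟨Nat.mod_lt _ (by norm_num), by
      rw [show 4 * (φ (4 * k) / 4) + φ (4 * k + w) % 4 = φ (4 * k + w) by omega]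
      exact (hsec _ hwl).1 hsw⟩
    have := hφi _ hwl i hi (by rw [hie]; omega)
    omega

end CfsgLib.FischerRecog58
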