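import Cfsg.Agent.FischerRecog58.Section

/-!
The section of a configuration is that of the model, for a suitable chart.
-/

set_option autoImplicit false
set_option maxRecDepth 100000

namespace CfsgLib.FischerRecog58

open Cfsg CfsgLib.ThreeTransp CfsgLib.CosetEnum CfsgLib.CosetEnum.Fi22

universe u

theorem covered2_sound {P : ℕ → Prop} : ∀ (l : List ((ℕ × ℕ × ℕ) × ℕ)) (known full : ℕ),
    covered2 l known full = true → (∀ n, known.testBit n = true → P n) →
    (∀ s ∈ l, P s.1.2.1 → P s.1.2.2 → P s.1.1) → ∀ n, full.testBit n = true → P n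
  | [], known, full, h, hk, _, n, hn => hk n (by
    simp only [covered2, Nat.beq_eq] at h
    rwa [h])
  | s :: t, known, full, h, hk, hs, n, hn => by
    simp only [covered2, Bool.and_eq_true] at h
    refine covered2_sound t _ full h.2 (fun m hm => ?_)
      (fun r hr => hs r (List.mem_cons_of_mem _ hr)) n hn
    simp only [Nat.testBit_or, Bool.or_eq_true, Nat.testBit_two_pow, decide_eq_true_eq] at hm
    rcases hm with hm | rfl
    · exact hk m hm
    · exact hs s List.mem_cons_self (hk _ h.1.1) (hk _ h.1.2)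

theorem secVal_lt (n k : ℕ) : secVal n k < 4 := Nat.mod_lt _ (by norm_num)

theorem mem_secList {n i : ℕ} : i ∈ secList n ↔ i / 4 < 45 ∧ secVal n (i / 4) = i % 4 := by
  simp only [secList, List.mem_map, List.mem_range]
  constructor
  · rintro ⟨k, hk, rfl⟩
    have := secVal_lt n k
    rw [show (4 * k + secVal n k) / 4 = k by omega]
    exact ⟨hk, by omega⟩
  · rintro ⟨h1, h2⟩
    exact ⟨i / 4, h1, by omega⟩

theorem mem_secList_val {n k : ℕ} (hk : k < 45) : 4 * k + secVal n k ∈ secList n :=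
  List.mem_map.2 ⟨k, List.mem_range.2 hk, rfl⟩

theorem derive_spec {k x y row u w : ℕ} (hs : ((k, x, y), row) ∈ List.zip SData.dsteps SData.dtabN)
    (hu : u < 4) (hw : w < 4) : k < 45 ∧ x < 45 ∧ y < 45 ∧
      rM (4 * k + dval row u w) = rM (4 * x + u) * rM (4 * y + w) * (rM (4 * x + u))⁻¹ := by
  have h := derive_check
  simp only [Bool.and_eq_true, List.all_eq_true, List.mem_range, decide_eq_true_eq, Nat.beq_eq,
    Nat.blt, Nat.ble_eq] at h
  obtain ⟨⟨⟨⟨hall, -⟩, -⟩, -⟩, hlt⟩ := h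
  obtain ⟨⟨hk, hx⟩, hy⟩ : (k < 45 ∧ x < 45) ∧ y < 45 := hlt _ (List.of_mem_zip hs).1
  refine ⟨hk, hx, hy, ?_⟩
  have e := (hall _ hs u hu w hw).2
  have hd : dval row u w < 4 := Nat.mod_lt _ (by norm_num)
  have h1 : 4 * k + dval row u w < 180 := by omega
  have h2 : 4 * y + w < 180 := by omega
  refine eq_of_pt (y := ⟨rM (4 * k + dval row u w), mw_mem _⟩)
    (z := ⟨rM (4 * x + u) * rM (4 * y + w) * (rM (4 * x + u))⁻¹, conj_mem_D22 _ (mw_mem _)⟩) ?_
  rw [rM_pt h1, memPt_equivariant (rM (4 * x + u)) ⟨rM (4 * y + w), mw_mem _⟩]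
  refine Eq.trans ?_ (pi_mw_val _ (rw_lt _) _).symm
  rw [rM_pt h2]
  exact e.symm

theorem rH_conj {i j l : ℕ} (h : rM l = rM i * rM j * (rM i)⁻¹) : rH l = rH i * rH j * (rH i)⁻¹ :=
  Subtype.ext h

variable {G : Type u} [Group G] [Finite G] {d : G}

theorem sec_code (H : Hyp d) {a x c : G} (K : Conf d a x c) (X : Chart a)
    (hX : X.inc (nH gM gM_nbr) = x) :
    ∃ n < 1024, ∀ i, X.Sec c i ↔ i ∈ secList n := by
  choose! u hu hus huu using fun k => sec_unique H K X hX k
  have h := derive_check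
  simp only [Bool.and_eq_true, List.all_eq_true, decide_eq_true_eq, Nat.blt, Nat.ble_eq] at h
  obtain ⟨⟨⟨⟨-, hlen⟩, hbase⟩, hcov⟩, -⟩ := h
  have hb : ∀ j, j < 5 → SData.base.getD j 0 < 45 := fun j hj => by
    rw [List.getD_eq_getElem _ _ (hlen.1.symm ▸ hj : j < SData.base.length)]
    exact hbase _ (List.getElem_mem _)
  have d0 := hu _ (hb 0 (by norm_num))
  have d1 := hu _ (hb 1 (by norm_num))
  have d2 := hu _ (hb 2 (by norm_num))
  have d3 := hu _ (hb 3 (by norm_num))
  have d4 := hu _ (hb 4 (by norm_num))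
  obtain ⟨n, hn⟩ : ∃ n, n = u (SData.base.getD 0 0) + 4 * u (SData.base.getD 1 0) +
      16 * u (SData.base.getD 2 0) + 64 * u (SData.base.getD 3 0) + 256 * u (SData.base.getD 4 0) :=
    ⟨_, rfl⟩
  have hn1 : n < 1024 := by omega
  refine ⟨n, hn1, ?_⟩
  have hv := secval_check
  simp only [Bool.and_eq_true, List.all_eq_true, List.mem_range, Nat.beq_eq, decide_eq_true_eq] at hv
  obtain ⟨hv0, hvs⟩ := hv n hn1
  have key : ∀ k < 45, secVal n k = u k := by
    intro k hk
    refine covered2_sound (P := fun k => k < 45 → secVal n k = u k) _ _ _ hcov ?_ ?_ k ?_ hk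
    · intro k hkb _
      obtain ⟨j, hj, e⟩ := List.mem_iff_getElem.1 ((testBit_maskOf _ _).1 hkb)
      have hj5 : j < 5 := hlen.1 ▸ hj
      rw [← e, ← List.getD_eq_getElem _ 0 hj, hv0 j hj5]
      interval_cases j <;> omega
    · rintro ⟨⟨k, x', y'⟩, row⟩ hs hPx hPy (hk : k < 45)
      obtain ⟨-, hx, hy, -⟩ := derive_spec hs (u := 0) (w := 0) (by norm_num) (by norm_num)
      obtain ⟨-, -, -, e⟩ := derive_spec hs (hu _ hx) (hu _ hy)
      have := hvs _ hs
      simp only [hPx hx, hPy hy] at this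
      rw [this]
      refine (huu k hk _ (Nat.mod_lt _ (by norm_num)) ⟨?_, ?_⟩)
      · have : dval row (u x') (u y') < 4 := Nat.mod_lt _ (by norm_num)
        omega
      · rw [rH_conj e, map_mul, map_mul, map_inv]
        exact ((hus _ hx).2.mul_right (hus _ hy).2).mul_right (hus _ hx).2.inv_right
    · rw [Nat.testBit_two_pow_sub_one]; exact decide_eq_true hk
  intro i
  rw [mem_secList]
  constructor
  · intro hi
    have hk : i / 4 < 45 := by have := hi.1; omega
    refine ⟨hk, ?_⟩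
    rw [key _ hk]
    exact (huu _ hk (i % 4) (Nat.mod_lt _ (by norm_num))
      (by rwa [show 4 * (i / 4) + i % 4 = i by omega])).symm
  · rintro ⟨hk, e⟩
    rw [key _ hk] at e
    have := hus _ hk
    rwa [show 4 * (i / 4) + u (i / 4) = i by omega] at this

theorem twist_sec {a : G} (X : Chart a) (c : G) {g : ℕ} (hg : g < 7) {i : ℕ} (hi : i < 180) :
    (X.twist (rH (SData.sgens.getD g 0))).Sec c i ↔ X.Sec c (pimg g i) := by
  obtain ⟨h1, -, e⟩ := perm_spec hg hi
  have hinv : (rH (SData.sgens.getD g 0))⁻¹ = rH (SData.sgens.getD g 0) :=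
    Subtype.ext (tt_inv set22 (mw_mem _))
  have e' : rH (pimg g i) = rH (SData.sgens.getD g 0) * rH i * (rH (SData.sgens.getD g 0))⁻¹ :=
    rH_conj e
  have e2 : (rH (SData.sgens.getD g 0))⁻¹ * rH i * rH (SData.sgens.getD g 0) = rH (pimg g i) := by
    rw [e', hinv]
  simp only [Chart.Sec, X.twist_inc, e2, hi, h1, true_and]

theorem twist_marker {a : G} (X : Chart a) {g : ℕ} (hg : g < 7) :
    (X.twist (rH (SData.sgens.getD g 0))).inc (nH gM gM_nbr) = X.inc (nH gM gM_nbr) := by
  obtain ⟨-, hl, -⟩ := perm_spec hg (show 0 < 180 by norm_num)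
  rw [X.twist_inc]
  refine congrArg X.inc (Subtype.ext ?_)
  show (rM (SData.sgens.getD g 0))⁻¹ * gM * rM (SData.sgens.getD g 0) = gM
  rw [mul_assoc, (rM_R hl).2.2.2.eq, inv_mul_cancel_left]

theorem bad_sec (n : ℕ) (hn : n < 3) {a x c : G} (X : Chart a) (hX : X.inc (nH gM gM_nbr) = x)
    (hcx : Commute c x)
    (hS : ∀ i, i ∈ secList (SData.sreps.getD (n + 1) 0) → X.Sec c i) : Commute c a := by
  have h := bad_check
  simp only [Bool.and_eq_true, List.all_eq_true, List.mem_range, decide_eq_true_eq, Bool.or_eq_true,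
    Nat.beq_eq, List.contains_iff_mem] at h
  obtain ⟨hw, h5⟩ := h n hn
  set ws := SData.badWords.getD n [] with hws
  have hlt : ∀ y ∈ (ws.map fun i => pword (rw180 i)).flatten, y < 9 := by
    intro y hy
    obtain ⟨w, hw', hyw⟩ := List.mem_flatten.1 hy
    obtain ⟨i, -, rfl⟩ := List.mem_map.1 hw'
    exact pword_lt (rw_lt i) y hyw
  have hp := eq_of_five hlt (by simp) h5
  have e1 : ((ws.map rH).prod : ↥Hs) = aH := by
    refine Subtype.ext ?_
    rw [SubmonoidClass.coe_list_prod, List.map_map]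
    refine Eq.trans ?_ (hp.trans a0_word)
    rw [gword_flatten, List.map_map]
    refine congrArg List.prod (List.map_congr_left fun i _ => ?_)
    exact mw_eq_gword _
  have e2 : X.inc (ws.map rH).prod = a := by rw [e1, X.inc_aH]
  rw [← e2, map_list_prod, List.map_map]
  refine Commute.list_prod_right _ _ fun z hz => ?_
  obtain ⟨i, hi, rfl⟩ := List.mem_map.1 hz
  rcases hw i hi with rfl | hi'
  · show Commute c (X.inc (rH 180))
    rwa [show rH 180 = nH gM gM_nbr from Subtype.ext (rM_gM (le_refl _)), hX]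
  · exact (hS i hi').2
where
  a0_word : gword g9 [0] = U6.a0 := by
    simp [gword_cons, gword_nil, U6.a0, g9, letterVal]

/-- The model's section occurs for some chart. -/
theorem sec_model (H : Hyp d) {a x c : G} (K : Conf d a x c) :
    ∃ X : Chart a, X.inc (nH gM gM_nbr) = x ∧ ∀ i, X.Sec c i ↔ i ∈ secList SData.n0 := by
  obtain ⟨X, hX⟩ := exists_chart_at H K.ha K.hx gM_nbr
  obtain ⟨n, hn, hXn⟩ := sec_code H K X hX
  let R : ℕ → Prop := fun m => ∀ X : Chart a, X.inc (nH gM gM_nbr) = x →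
    (∀ i, X.Sec c i ↔ i ∈ secList m) → ∃ r ∈ SData.sreps, ∃ Y : Chart a,
      Y.inc (nH gM gM_nbr) = x ∧ ∀ i, Y.Sec c i ↔ i ∈ secList r
  have h := sorbit_check
  simp only [Bool.and_eq_true, List.all_eq_true, List.mem_range, decide_eq_true_eq, Nat.blt,
    Nat.ble_eq, Nat.beq_eq] at h
  obtain ⟨⟨hsteps, hcov⟩, hhead, hlen⟩ := h
  have hR : R n := by
    refine covered_sound (P := R) _ _ _ hcov ?_ ?_ n
      (by rw [Nat.testBit_two_pow_sub_one]; exact decide_eq_true hn)
    · intro m hm X hX hS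
      exact ⟨m, (testBit_maskOf _ _).1 hm, X, hX, hS⟩
    · intro s hs hP X hX hS
      obtain ⟨⟨⟨-, hg⟩, -⟩, hmap⟩ := hsteps s hs
      have hX' : (X.twist (rH (SData.sgens.getD s.2.1 0))).inc (nH gM gM_nbr) = x := by
        rw [twist_marker X hg, hX]
      obtain ⟨n', -, hn'⟩ := sec_code H K _ hX'
      refine hP _ hX' fun i => ?_
      have hval : ∀ k < 45, secVal n' k = secVal s.2.2 k := fun k hk => by
        have hlt : 4 * k + secVal s.2.2 k < 180 := by have := secVal_lt s.2.2 k; omega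
        have h1 := (twist_sec X c hg hlt).2 ((hS _).2 (mem_secList.2 ⟨by
          have := (perm_spec hg hlt).1; omega, hmap k hk⟩))
        have h2 := (mem_secList.1 ((hn' _).1 h1)).2
        have := secVal_lt s.2.2 k
        rwa [show (4 * k + secVal s.2.2 k) / 4 = k by omega,
          show (4 * k + secVal s.2.2 k) % 4 = secVal s.2.2 k by omega] at h2
      rw [hn' i, mem_secList, mem_secList]
      exact and_congr_right fun hk => by rw [hval _ hk]
  obtain ⟨r, hr, Y, hY, hYS⟩ := hR X hX hXn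
  obtain ⟨j, hj, e⟩ := List.mem_iff_getElem.1 hr
  refine ⟨Y, hY, ?_⟩
  rcases j with - | m
  · have : r = SData.n0 := by
      rw [List.head?_eq_getElem?, List.getElem?_eq_getElem hj, e] at hhead
      exact Option.some.inj hhead
    exact this ▸ hYS
  · refine absurd (bad_sec m (by omega) Y hY K.hc.2.2.symm ?_).symm K.far
    intro i hi
    rw [List.getD_eq_getElem _ _ hj, e] at hi
    exact (hYS i).2 hi

end CfsgLib.FischerRecog58
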