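import Cfsg.Agent.FischerRecog58.SectionMain

/-!
The members outside the common neighbours: the model's chart of a configuration.
-/

set_option autoImplicit false
set_option maxRecDepth 100000

namespace CfsgLib.FischerRecog58

open Cfsg CfsgLib.ThreeTransp CfsgLib.CosetEnum CfsgLib.CosetEnum.Fi22

universe u

theorem bM_fix_iff (y : D22) : fixesW [0, 1] (memPt y) = true ↔ Commute bM (y : Spor.Fi22) :=
  fixesW_iff bW_lt y

theorem mem_Y22_iff_commute {t : Spor.Fi22} (ht : t ∈ nbr D22 U6.a0) : t ∈ Y22 ↔ Commute bM t :=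
  ⟨fun h => h.2.2.2, fun h => ⟨ht, ht.1, fun e => bM_not_commute (e ▸ ht.2.2), h⟩⟩

theorem gM_Y22 : gM ∈ Y22 := by
  rw [mem_Y22_iff_commute gM_nbr, ← bM_fix_iff ⟨gM, mw_mem _⟩]
  have h := n0_check
  simp only [Bool.and_eq_true] at h
  rw [show (memPt ⟨gM, mw_mem _⟩ : ℕ) = wpt SData.gW from pt_mw gW_lt]
  exact h.1.2

theorem rM_Y22_iff {i : ℕ} (hi : i < 180) : rM i ∈ Y22 ↔ i ∈ secList SData.n0 := by
  have h := n0_check
  simp only [Bool.and_eq_true, List.all_eq_true, List.mem_range, beq_iff_eq] at h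
  rw [mem_Y22_iff_commute (rM_R hi).1, ← bM_fix_iff ⟨rM i, mw_mem _⟩, rM_pt hi, ← h.1.1 i hi,
    List.contains_iff_mem]

theorem secList_nodup (n : ℕ) : (secList n).Nodup := by
  refine List.nodup_range.map fun p q h => ?_
  have := secVal_lt n p
  have := secVal_lt n q
  omega

theorem opts_mem {y : D22} (hy : (y : Spor.Fi22) ∈ nbr D22 U6.a0)
    (hn : ¬ Commute gM (y : Spor.Fi22)) : ∃ n < 512, SData.opts.getD n 0 = (memPt y : ℕ) := by
  have hc := fars_check
  simp only [Bool.and_eq_true, decide_eq_true_eq, Nat.beq_eq] at hc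
  obtain ⟨⟨⟨⟨⟨⟨⟨⟨hmask, hall⟩, -⟩, -⟩, -⟩, -⟩, -⟩, -⟩, -⟩ := hc
  have ho := outer_check
  simp only [Bool.and_eq_true, decide_eq_true_eq, Nat.beq_eq] at ho
  obtain ⟨⟨⟨⟨-, hmask'⟩, hlen⟩, -⟩, -⟩ := ho
  have := (Model.allBelow_iff _ _).1 hall (memPt y) (memPt y).2
  simp only [beq_iff_eq] at this
  have hbit : (maskOf SData.opts).testBit (memPt y : ℕ) = true := by
    rw [hmask', this]
    simp only [Bool.and_eq_true, Nat.beq_eq, Bool.not_eq_true', ← Bool.not_eq_true,
      fixesW_iff gW_lt]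
    exact ⟨(fix0_iff y).2 hy.2.2, hn⟩
  obtain ⟨n, hn', e⟩ := List.mem_iff_getElem.1 ((testBit_maskOf _ _).1 hbit)
  exact ⟨n, hlen ▸ hn', by rw [List.getD_eq_getElem _ _ hn', e]⟩

theorem opts_bound {n : ℕ} (hn : n < 512) : SData.opts.getD n 0 < 3510 := by
  have hc := fars_check
  simp only [Bool.and_eq_true, decide_eq_true_eq, Nat.beq_eq] at hc
  obtain ⟨⟨⟨⟨⟨⟨⟨⟨hmask, -⟩, -⟩, -⟩, -⟩, -⟩, -⟩, -⟩, -⟩ := hc
  have ho := outer_check
  simp only [Bool.and_eq_true, decide_eq_true_eq, Nat.beq_eq] at ho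
  obtain ⟨⟨⟨⟨-, hmask'⟩, hlen⟩, -⟩, -⟩ := ho
  have hmem : SData.opts.getD n 0 ∈ SData.opts := by
    rw [List.getD_eq_getElem _ _ (hlen.symm ▸ hn : n < SData.opts.length)]
    exact List.getElem_mem _
  have h := (testBit_maskOf SData.opts _).2 hmem
  rw [hmask', ← hmask, testBit_maskOf] at h
  exact lt_of_not_ge fun hge => absurd (fars_conj.fars_bound _ h) (not_lt.2 hge)

variable {G : Type u} [Group G] [Finite G] {d : G}

/-- The root of an index in its orbit. -/
def oroot (n : ℕ) : ℕ := if n < 80 then 0 else 80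

theorem outer_step {a x c : G} (X : Chart a) (hX : X.inc (nH gM gM_nbr) = x) (hcx : Commute c x)
    (hS : ∀ i, X.Sec c i ↔ i ∈ secList SData.n0) (n : ℕ) (hn : n < 512) :
    ∀ t (h : t ∈ nbr D22 U6.a0), (memPt ⟨t, h.1⟩ : ℕ) = SData.opts.getD n 0 →
      ∃ t0, ∃ h0 : t0 ∈ nbr D22 U6.a0, (memPt ⟨t0, h0.1⟩ : ℕ) = SData.opts.getD (oroot n) 0 ∧
        (Commute c (X.inc (nH t h)) ↔ Commute c (X.inc (nH t0 h0))) := by
  have ho := outer_check
  simp only [Bool.and_eq_true, List.all_eq_true, List.mem_range, decide_eq_true_eq, Bool.or_eq_true,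
    Nat.beq_eq, List.contains_iff_mem] at ho
  obtain ⟨⟨⟨⟨⟨hsteps, hog⟩, -⟩, -⟩, -⟩, -⟩ := ho
  induction n using Nat.strong_induction_on with
  | _ n ih =>
    intro t ht hpt
    by_cases h0 : n = 0 ∨ n = 80
    · refine ⟨t, ht, ?_, Iff.rfl⟩
      rw [hpt]
      rcases h0 with rfl | rfl <;> rfl
    obtain ⟨h0, h80⟩ := not_or.1 h0
    obtain ⟨⟨⟨hj, hlt⟩, hside⟩, hedge⟩ :=
      (hsteps n hn).resolve_left (by rintro (h | h) <;> contradiction)
    simp only [Nat.blt, Nat.ble_eq] at hj hlt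
    set s := SData.osteps.getD n (0, 0) with hs
    have hroot : oroot s.2 = oroot n := by
      unfold oroot
      by_cases hn80 : n < 80
      · rw [if_pos (show Nat.blt n 80 = true from Nat.ble_eq_true_of_le hn80)] at hside
        rw [if_pos hn80, if_pos (show s.2 < 80 from Nat.le_of_ble_eq_true hside)]
      · rw [if_neg (show ¬ Nat.blt n 80 = true from fun h => hn80 (Nat.le_of_ble_eq_true h))] at hside
        rw [if_neg hn80, if_neg (show ¬ s.2 < 80 from fun h => by
          simp only [Bool.not_eq_true', ← Bool.not_eq_true] at hside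
          exact hside (Nat.ble_eq_true_of_le h))]
    set i := SData.ogens.getD s.1 180 with hi
    have hcg : Commute c (X.inc (rH i)) := by
      rcases hog s.1 hj with h | h
      · rw [← hi] at h
        rwa [show rH i = nH gM gM_nbr from Subtype.ext (rM_gM h.ge), hX]
      · exact ((hS i).2 h).2
    have hgn : rM i * U6.a0 * (rM i)⁻¹ = U6.a0 := by
      rw [← U6.commute_of_mem (rM_Hs i), mul_inv_cancel_right]
    have ht' : rM i * t * (rM i)⁻¹ ∈ nbr D22 U6.a0 := by
      have e := nbr_conj ttg22 (rM i) ht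
      rwa [hgn] at e
    have hb := opts_bound (show s.2 < 512 by omega)
    have hpt' : (memPt ⟨rM i * t * (rM i)⁻¹, ht'.1⟩ : ℕ) = SData.opts.getD s.2 0 := by
      have e1 : pi (rM i) ⟨_, hb⟩ = memPt ⟨t, ht.1⟩ := Fin.ext (by
        refine (pi_mw_val _ (rw_lt i) _).trans ?_
        rw [hpt]
        exact hedge)
      rw [show (⟨rM i * t * (rM i)⁻¹, ht'.1⟩ : D22) =
        ⟨rM i * t * (rM i)⁻¹, conj_mem_D22 _ ht.1⟩ from rfl,
        memPt_equivariant (rM i) ⟨t, ht.1⟩, ← e1, ← Equiv.Perm.mul_apply, ← map_mul,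
        rM, tt_mul_self set22 (mw_mem _), map_one, Equiv.Perm.one_apply]
    obtain ⟨t0, ht0, hp0, hc0⟩ := ih s.2 hlt (by omega) _ ht' hpt'
    refine ⟨t0, ht0, by rw [hp0, hroot], Iff.trans ?_ hc0⟩
    have e : nH (rM i * t * (rM i)⁻¹) ht' = rH i * nH t ht * (rH i)⁻¹ := rfl
    rw [e, map_mul, map_mul, map_inv]
    refine ⟨fun h => (hcg.mul_right h).mul_right hcg.inv_right, fun h => ?_⟩
    have := ((hcg.inv_right.mul_right h).mul_right hcg)
    simpa [mul_assoc] using this

theorem four_spec : gword g9 ((SData.four.map pword).flatten) =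
    U6.a0 * mw (SData.owords.getD 2 []) ∧
    (∀ v ∈ SData.four, mw v ∈ nbr D22 U6.a0) ∧
    Commute U6.a0 (mw (SData.owords.getD 2 [])) ∧ ¬ Commute gM (mw (SData.owords.getD 2 [])) := by
  have h := four_check
  simp only [Bool.and_eq_true, List.all_eq_true, decide_eq_true_eq, Nat.blt, Nat.ble_eq,
    Bool.not_eq_true', ← Bool.not_eq_true, Nat.beq_eq] at h
  obtain ⟨⟨⟨⟨⟨⟨⟨h5, hl⟩, hol⟩, -⟩, -⟩, -⟩, h0⟩, hg⟩ := h
  have hv : ∀ x ∈ SData.owords.getD 2 [], x < 9 := hol _ (by decide)
  refine ⟨?_, ?_, ?_, ?_⟩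
  · rw [eq_of_five (fun y hy => by
      obtain ⟨w, hw', hyw⟩ := List.mem_flatten.1 hy
      obtain ⟨v, hv', rfl⟩ := List.mem_map.1 hw'
      exact pword_lt (hl v hv') y hyw) (fun y hy => by
      rcases List.mem_append.1 hy with h | h
      · simp only [List.mem_singleton] at h; omega
      · exact pword_lt hv y h) h5, U6.gword_app, U6.gword_zero, mw_eq_gword]
    rfl
  · intro v hv'
    have hk : Nat.beq (runT Tab.perm.T Tab.perm.L [0] (wpt v)) (wpt v) &&
        !Nat.beq (wpt v) 0 = true := nbr_check v hv'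
    simp only [Bool.and_eq_true, Bool.not_eq_true', decide_eq_true_eq, Nat.beq_eq,
      ← Bool.not_eq_true] at hk
    refine ⟨mw_mem _, fun e => hk.2 ?_, ?_⟩
    · rw [← pt_mw (hl v hv')]
      exact (memPt_eq_zero_iff ⟨mw v, mw_mem _⟩).2 e
    · rw [← fix0_iff ⟨mw v, mw_mem _⟩, pt_mw (hl v hv')]
      exact hk.1
  · rw [← fix0_iff ⟨_, mw_mem _⟩, pt_mw hv]
    exact h0
  · rw [gM, ← fixesW_iff gW_lt ⟨_, mw_mem _⟩, pt_mw hv]
    exact hg
where
  nbr_check : ∀ v ∈ SData.four, Nat.beq (runT Tab.perm.T Tab.perm.L [0] (wpt v)) (wpt v) &&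
        !Nat.beq (wpt v) 0 = true := by decide +kernel

/-- For a configuration, a chart whose common neighbours are those of the model. -/
theorem conf_chart (H : Hyp d) {a x c : G} (K : Conf d a x c) :
    ∃ X : Chart a, X.inc (nH gM gM_nbr) = x ∧
      ∀ t (h : t ∈ nbr D22 U6.a0), Commute c (X.inc (nH t h)) ↔ t ∈ Y22 := by
  have := finite_fi22
  obtain ⟨X, hX, hS⟩ := sec_model H K
  have hcx : Commute c x := K.hc.2.2.symm
  have ho := outer_check
  simp only [Bool.and_eq_true, List.all_eq_true, List.mem_range, decide_eq_true_eq] at ho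
  obtain ⟨⟨⟨⟨⟨-, -⟩, -⟩, -⟩, hsmall⟩, hbig⟩ := ho
  have hstep := outer_step X hX hcx hS
  have huniq : ∀ {t s : Spor.Fi22} (ht : t ∈ nbr D22 U6.a0) (hs : s ∈ nbr D22 U6.a0),
      (memPt ⟨t, ht.1⟩ : ℕ) = memPt ⟨s, hs.1⟩ → nH t ht = nH s hs :=
    fun ht hs e => Subtype.ext (eq_of_pt e)
  -- the big orbit does not commute
  have hB : ∀ n < 512, 80 ≤ n → ∀ t (h : t ∈ nbr D22 U6.a0),
      (memPt ⟨t, h.1⟩ : ℕ) = SData.opts.getD n 0 → ¬ Commute c (X.inc (nH t h)) := by
    intro n hn h80 t ht hpt hct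
    obtain ⟨t0, ht0, hp0, hc0⟩ := hstep n hn t ht hpt
    have hr : oroot n = 80 := if_neg (not_lt.2 h80)
    have hall : ∀ m < 512, 80 ≤ m → ∀ s (h : s ∈ nbr D22 U6.a0),
        (memPt ⟨s, h.1⟩ : ℕ) = SData.opts.getD m 0 → Commute c (X.inc (nH s h)) := by
      intro m hm hm80 s hs hps
      obtain ⟨s0, hs0, hq0, hd0⟩ := hstep m hm s hs hps
      rw [show oroot m = oroot n from (if_neg (not_lt.2 hm80)).trans hr.symm, ← hp0] at hq0
      rw [hd0, huniq hs0 ht0 hq0]
      exact hc0.1 hct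
    obtain ⟨hword, hnb, ha0, hgσ⟩ := four_spec
    have h4 := four_check
    simp only [Bool.and_eq_true, List.all_eq_true, List.mem_range, decide_eq_true_eq,
      Bool.or_eq_true, List.any_eq_true, Nat.beq_eq, Nat.blt, Nat.ble_eq] at h4
    obtain ⟨⟨⟨⟨⟨⟨⟨-, hl⟩, -⟩, hlen⟩, -⟩, hpts⟩, -⟩, -⟩ := h4
    have hcv : ∀ v (hv : v ∈ SData.four), Commute c (X.inc (nH (mw v) (hnb v hv))) := by
      intro v hv
      obtain ⟨j, hj, e⟩ := List.mem_iff_getElem.1 hv
      obtain ⟨e1, e2⟩ := hpts j (hlen ▸ hj)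
      rw [List.getD_eq_getElem _ _ hj, e] at e1
      have hp : (memPt ⟨mw v, mw_mem _⟩ : ℕ) = SData.fourPts.getD j 0 := by
        rw [pt_mw (hl v hv), e1]
      rcases e2 with ⟨m, hm, e2⟩ | ⟨i, hi, e2⟩
      · exact hall (80 + m) (by omega) (by omega) _ _ (hp.trans e2.symm)
      · have hi180 := ((hS i).2 hi).1
        have : nH (mw v) (hnb v hv) = rH i := Subtype.ext (eq_of_pt (y := ⟨mw v, mw_mem _⟩)
          (z := ⟨rM i, mw_mem _⟩) (by rw [hp, rM_pt hi180, e2]))
        rw [this]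
        exact ((hS i).2 hi).2
    set σ : ↥Hs := ⟨mw (SData.owords.getD 2 []), U6.mem_Hs_of_commute ha0⟩ with hσ
    have hprod : (SData.four.attach.map fun v => nH (mw v.1) (hnb v.1 v.2)).prod = aH * σ := by
      refine Subtype.ext ?_
      rw [SubmonoidClass.coe_list_prod, List.map_map]
      refine Eq.trans ?_ hword
      rw [gword_flatten, List.map_map]
      refine congrArg List.prod ?_
      refine Eq.trans ?_ (List.attach_map_val (f := gword g9 ∘ pword) (l := SData.four))
      exact List.map_congr_left fun v _ => mw_eq_gword v.1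
    have hca : Commute c (a * X.inc σ) := by
      have e : X.inc (SData.four.attach.map fun v => nH (mw v.1) (hnb v.1 v.2)).prod = a * X.inc σ := by
        rw [hprod, map_mul, X.inc_aH]
      rw [← e, map_list_prod, List.map_map]
      exact Commute.list_prod_right _ _ fun z hz => by
        obtain ⟨v, -, rfl⟩ := List.mem_map.1 hz
        exact hcv v.1 v.2
    have h3 : (gM * mw (SData.owords.getD 2 [])) ^ 3 = 1 := by
      refine (set22.2 _ (mw_mem _) _ (mw_mem _)).resolve_left fun h => hgσ ?_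
      rw [pow_two, mul_eq_one_iff_eq_inv, mul_inv_rev, tt_inv set22 (mw_mem _),
        tt_inv set22 (mw_mem _)] at h
      exact h
    set g := X.inc (nH gM gM_nbr) with hg
    set s := X.inc σ with hs
    have hgg : g * g = 1 := by
      rw [hg, ← map_mul, show nH gM gM_nbr * nH gM gM_nbr = 1 from
        Subtype.ext (tt_mul_self set22 (mw_mem _)), map_one]
    have hss : s * s = 1 := by
      rw [hs, ← map_mul, show σ * σ = 1 from Subtype.ext (tt_mul_self set22 (mw_mem _)), map_one]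
    have hgs3 : (g * s) ^ 3 = 1 := by
      rw [hg, hs, ← map_mul, ← map_pow, show (nH gM gM_nbr * σ) ^ 3 = 1 from Subtype.ext h3, map_one]
    have hag : Commute a g := X.inc_commute _
    have has : Commute a s := X.inc_commute _
    have haa : a * a = 1 := by
      rw [← X.inc_aH, ← map_mul, show aH * aH = 1 from
        Subtype.ext (tt_mul_self set22 a0_mem), map_one]
    have hcg : Commute c g := hX.symm ▸ hcx
    have e2 : (g * (a * s)) * (g * (a * s)) = (g * s) * (g * s) := by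
      calc _ = g * (a * (s * g) * a) * s := by group
        _ = g * (s * g * (a * a)) * s := by rw [((has.mul_right hag)).eq]; group
        _ = _ := by rw [haa]; group
    have hcq : Commute c ((g * s) * (g * s)) := e2 ▸ (hcg.mul_right hca).mul_right (hcg.mul_right hca)
    have hcgs : Commute c (g * s) := by
      have e : g * s = ((g * s) * (g * s))⁻¹ := by
        rw [eq_inv_iff_mul_eq_one, ← pow_two, ← pow_succ', hgs3]
      exact e ▸ hcq.inv_right
    have hcs : Commute c s := by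
      have := hcg.mul_right hcgs
      rwa [← mul_assoc, hgg, one_mul] at this
    have hca' : Commute c a := by
      have := hca.mul_right hcs
      rwa [mul_assoc, hss, mul_one] at this
    exact K.far hca'.symm
  -- the small orbit commutes
  have hA : ∀ n < 512, n < 80 → ∀ t (h : t ∈ nbr D22 U6.a0),
      (memPt ⟨t, h.1⟩ : ℕ) = SData.opts.getD n 0 → Commute c (X.inc (nH t h)) := by
    intro n hn hn80 t ht hpt
    by_contra hnc
    obtain ⟨t0, ht0, hp0, hc0⟩ := hstep n hn t ht hpt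
    have hr : oroot n = 0 := if_pos hn80
    have hout : ∀ t (h : t ∈ nbr D22 U6.a0), Commute c (X.inc (nH t h)) → Commute gM t := by
      intro s hs hcs
      by_contra hg
      obtain ⟨m, hm, e⟩ := opts_mem (y := ⟨s, hs.1⟩) hs hg
      by_cases hm80 : m < 80
      · obtain ⟨s0, hs0, hq0, hd0⟩ := hstep m hm s hs e.symm
        rw [show oroot m = oroot n from (if_pos hm80).trans hr.symm, ← hp0] at hq0
        rw [hd0, huniq hs0 ht0 hq0] at hcs
        exact hnc (hc0.2 hcs)
      · exact hB m hm (not_lt.1 hm80) s hs e.symm hcs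
    obtain ⟨i0, hi0⟩ : ∃ i, i ∈ secList SData.n0 :=
      ⟨_, mem_secList_val (show 0 < 45 by norm_num)⟩
    obtain ⟨hi180, hci⟩ := (hS i0).2 hi0
    set r := X.inc (rH i0) with hr'
    have hra : r ∈ nbr (conjugatesOf a) a := X.inc_mem (H.at K.ha) (rM_R hi180).1
    have K' : Conf d a r c := by
      refine ⟨K.ha, ?_, ⟨?_, fun e => K.far ?_, hci.symm⟩, K.far⟩
      · rw [← class_eq K.ha]; exact hra
      · exact K.hc.1
      · rw [e]; exact X.inc_commute _
    obtain ⟨X', hX', hS'⟩ := sec_model H K'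
    have hmap : ∀ j ∈ secList SData.n0, ∃ k,
        (k = 180 ∨ k ∈ (secList SData.n0).filter fun l => !Nat.beq i0 l && cbit i0 l) ∧
          X'.inc (rH j) = X.inc (rH k) := by
      intro j hj
      obtain ⟨hj180, hcj⟩ := (hS' j).2 hj
      have hm := X'.inc_mem (H.at K.ha) (t := rH j) (rM_R hj180).1
      obtain ⟨s, hs, hse⟩ := (X.nbr_iff (H.at K.ha)).1 hm
      have hsr : Commute (rM i0) s := by
        have : Commute r (X'.inc (rH j)) := by
          rw [← hX', X'.commute_inc]; exact (rM_R hj180).2.2.2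
        rw [← hse, hr', X.commute_inc] at this
        exact this
      have hne : s ≠ rM i0 := fun e => (rM_R hj180).2.2.1 (congrArg Subtype.val (X'.inc_injective
        (show X'.inc (rH j) = X'.inc (nH gM gM_nbr) by
          rw [hX', ← hse, hr']
          exact congrArg X.inc (Subtype.ext e))))
      have hgs := hout s hs (by rw [hse]; exact hcj)
      by_cases hsg : s = gM
      · exact ⟨180, Or.inl rfl, by
          rw [← hse]; exact congrArg X.inc (Subtype.ext (hsg.trans (rM_gM le_rfl).symm))⟩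
      · obtain ⟨k, hk, e⟩ := R_exists hs ⟨hs.1, hsg, hgs⟩
        refine ⟨k, Or.inr (List.mem_filter.2 ⟨(hS k).1 ⟨hk, ?_⟩, ?_⟩),
          by rw [← hse]; exact congrArg X.inc (Subtype.ext e.symm)⟩
        · rw [show rH k = nH s hs from Subtype.ext e, hse]; exact hcj
        · rw [Bool.and_eq_true, Bool.not_eq_true', ← Bool.not_eq_true, Nat.beq_eq, cbit_iff hi180 hk]
          exact ⟨fun h => hne (by rw [← e, h]), e ▸ hsr⟩
    choose! f hf hfe using hmap
    have hinj : ∀ p ∈ secList SData.n0, ∀ q ∈ secList SData.n0, f p = f q → p = q := by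
      intro p hp q hq e
      refine rM_inj ((hS' p).2 hp).1 ((hS' q).2 hq).1 ?_
      refine congrArg Subtype.val (X'.inc_injective ?_ : rH p = rH q)
      rw [hfe p hp, hfe q hq, e]
    have hnd : ((secList SData.n0).map f).Nodup := (secList_nodup _).map_on hinj
    have hlen : ((secList SData.n0).map f).length ≤
        (180 :: (secList SData.n0).filter fun l => !Nat.beq i0 l && cbit i0 l).length :=
      (List.subperm_of_subset hnd fun k hk => by
        obtain ⟨j, hj, rfl⟩ := List.mem_map.1 hk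
        exact List.mem_cons.2 (hf j hj)).length_le
    have h12 := n0_check
    simp only [Bool.and_eq_true, List.all_eq_true, decide_eq_true_eq, Nat.beq_eq] at h12
    rw [List.length_map, List.length_cons, h12.2 i0 hi0] at hlen
    simp [secList] at hlen
  refine ⟨X, hX, fun t ht => ?_⟩
  by_cases htg : t = gM
  · subst htg
    rw [show nH gM ht = nH gM gM_nbr from rfl, hX]
    exact iff_of_true hcx gM_Y22
  by_cases hgt : Commute gM t
  · obtain ⟨i, hi, e⟩ := R_exists ht ⟨ht.1, htg, hgt⟩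
    subst e
    rw [rM_Y22_iff hi, ← hS i]
    exact ⟨fun h => ⟨hi, h⟩, fun h => h.2⟩
  · obtain ⟨n, hn, e⟩ := opts_mem (y := ⟨t, ht.1⟩) ht hgt
    rw [mem_Y22_iff_commute ht, ← bM_fix_iff ⟨t, ht.1⟩, ← e]
    by_cases hn80 : n < 80
    · exact iff_of_true (hA n hn hn80 t ht e.symm) (hsmall n hn80)
    · refine iff_of_false (hB n hn (not_lt.1 hn80) t ht e.symm) ?_
      have := hbig (n - 80) (by omega)
      rw [show 80 + (n - 80) = n by omega, Bool.not_eq_true'] at this
      rw [this]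
      decide

end CfsgLib.FischerRecog58
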